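import Cfsg.Agent.H2.Amal
import Cfsg.Agent.H2.Transfer
import Cfsg.Prelude.Def_LocalStructure

/-! Coset graphs and amalgams: the groups `V_δ^{(n)}`. -/

namespace Cfsg.Agent.H2.Am

open Subgroup MulAction
open scoped commutatorElement

variable {X : Type*} [Group X] {M₁ M₂ : Subgroup X} {p : ℕ}

theorem le_of_le_sup_comm {P Q D : Subgroup X} (hP : Group.IsNilpotent P) (hQ : Q ≤ P)
    (hDP : D ≤ P) (hD : P ≤ normalizer (D : Set X)) (h : Q ≤ D ⊔ ⁅Q, P⁆) : Q ≤ D := by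
  obtain ⟨n, hn⟩ := (isNilpotent_iff_lowerCentralSeries P).1 hP
  have : ∀ k, Q ≤ D ⊔ P.lowerCentralSeries k := by
    intro k
    induction k with
    | zero => exact hQ.trans le_sup_right
    | succ k ih =>
      refine h.trans (sup_le le_sup_left ((commutator_mono ih le_rfl).trans
        (H8.commutator_sup_le_of_norm ((H8.commutator_le_left_of_norm hD).trans le_sup_left)
          le_sup_right ((sup_le hDP (P.lowerCentralSeries_antitone (Nat.zero_le k))).trans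
            (H8.le_normalizer_sup hD (P.self_le_normalizer_lowerCentralSeries _))))))
  simpa only [hn, sup_bot_eq] using this n

theorem dist_smul_le (h : M₁ ⊔ M₂ = ⊤) (g : X) (a b : CosetVertex M₁ M₂) :
    (cosetGraph M₁ M₂).dist (g • a) (g • b) ≤ (cosetGraph M₁ M₂).dist a b := by
  obtain ⟨w, hw⟩ := (connected h).exists_walk_length_eq_dist a b
  let f : cosetGraph M₁ M₂ →g cosetGraph M₁ M₂ := ⟨fun v => g • v, adj_smul g⟩
  exact (SimpleGraph.dist_le (w.map f)).trans (by rw [SimpleGraph.Walk.length_map, hw])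

theorem cj_Z_le (g : X) (H : Subgroup X) :
    cj g (sylowCenterClosure p H) ≤ sylowCenterClosure p (cj g H) :=
  cj_le_iff.2 (Z_le fun _ hP => cj_le_iff.1 ((cj_OZ _ _).le.trans (OZ_le_Z (hP.cj g))))

theorem Z_le_V {n : ℕ} {a b : CosetVertex M₁ M₂} (h : (cosetGraph M₁ M₂).dist a b ≤ n) :
    vertexZ p b ≤ vertexVIter p M₁ M₂ n a := 
  le_iSup_of_le (⟨b, h⟩ : {μ // (cosetGraph M₁ M₂).dist a μ ≤ n}) le_rfl

theorem V_le {n : ℕ} {a : CosetVertex M₁ M₂} {K : Subgroup X}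
    (h : ∀ b, (cosetGraph M₁ M₂).dist a b ≤ n → vertexZ p b ≤ K) :
    vertexVIter p M₁ M₂ n a ≤ K := iSup_le fun b => h b.1 b.2

theorem cj_V_le (h : M₁ ⊔ M₂ = ⊤) (g : X) (n : ℕ) (a : CosetVertex M₁ M₂) :
    cj g (vertexVIter p M₁ M₂ n a) ≤ vertexVIter p M₁ M₂ n (g • a) :=
  cj_le_iff.2 (V_le fun b hb => cj_le_iff.1 ((cj_Z_le _ _).trans (by
    rw [← stab_smul]; exact Z_le_V ((dist_smul_le h g a b).trans hb))))

theorem le_norm_V (h : M₁ ⊔ M₂ = ⊤) (n : ℕ) (a : CosetVertex M₁ M₂) :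
    stabilizer X a ≤ normalizer ((vertexVIter p M₁ M₂ n a : Subgroup X) : Set X) :=
  H8.le_normalizer_iff_cj.2 fun g hg => by
    have := cj_V_le (p := p) h g n a
    rwa [mem_stabilizer_iff.1 hg] at this

theorem V_le_V (h : M₁ ⊔ M₂ = ⊤) {a b : CosetVertex M₁ M₂} (e : (cosetGraph M₁ M₂).Adj a b)
    (n : ℕ) : vertexVIter p M₁ M₂ n b ≤ vertexVIter p M₁ M₂ (n + 1) a :=
  V_le fun c hc => Z_le_V (((connected h).dist_triangle (v := b)).trans (by
    rw [SimpleGraph.dist_eq_one_iff_adj.2 e]; omega))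

theorem dvd_card (h : IsCharPAmalgamPair p M₁ M₂) (a : CosetVertex M₁ M₂) :
    p ∣ Nat.card (stabilizer X a) := by
  rcases a with a | a <;> induction a using QuotientGroup.induction_on
  · rw [stab_inl, card_cj]; exact h.2.2.2.1
  · rw [stab_inr, card_cj]; exact h.2.2.2.2.1

variable [hp : Fact p.Prime]

theorem Z_ne_bot (h : IsCharPAmalgamPair p M₁ M₂) (a : CosetVertex M₁ M₂) : vertexZ p a ≠ ⊥ := by
  haveI := (vp h a).1
  obtain ⟨S⟩ : Nonempty (Sylow p (stabilizer X a)) := inferInstance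
  haveI := (S : Subgroup (stabilizer X a)).nontrivial_iff_ne_bot.2
    (S.ne_bot_of_dvd_card (dvd_card h a))
  haveI := S.2.center_nontrivial
  obtain ⟨x, hx⟩ := exists_prime_orderOf_dvd_card' (G := center (S : Subgroup (stabilizer X a))) p
    (by
      obtain ⟨k, hk, e⟩ := (S.2.to_subgroup (center _)).nontrivial_iff_card.1 inferInstance
      exact e ▸ dvd_pow_self p hk.ne')
  have h1 : orderOf (x.1.1.1 : X) = p := by
    rw [Subgroup.orderOf_coe, Subgroup.orderOf_coe, Subgroup.orderOf_coe, hx]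
  intro e
  have h2 : (x.1.1.1 : X) ∈ vertexZ p a := OZ_le_Z (sylIn_map_subtype S) (mem_omegaOne
    (mem_inf.2 ⟨⟨x.1.1, x.1.2, rfl⟩, by
      rintro _ ⟨y, hy, rfl⟩
      exact congrArg (fun z : (S : Subgroup (stabilizer X a)) => (z.1.1 : X))
        (mem_center_iff.1 x.2 ⟨y, hy⟩)⟩) (orderOf_dvd_iff_pow_eq_one.1 h1.dvd))
  rw [e, mem_bot] at h2
  rw [h2, orderOf_one] at h1
  exact hp.out.one_lt.ne h1

theorem exists_res_mul {P H : Subgroup X} [Finite H] (hP : SylIn p P H) {g : X} (hg : g ∈ H) :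
    ∃ r ∈ resOf p H, ∃ t ∈ P, g = r * t := by
  obtain ⟨S, rfl⟩ := hP.exists_sylow'
  obtain ⟨r, hr, t, ht, e⟩ := H8.mem_sup_of_norm_left
    (le_top.trans (le_normalizer_resOf p ⊤)) ((sylIn_top S).resOf_sup.ge (mem_top ⟨g, hg⟩))
  rw [resOf_top] at hr
  exact ⟨r, pResidual_map_subtype p H ▸ ⟨r, hr, rfl⟩, t, ⟨t, ht, rfl⟩, congrArg Subtype.val e⟩

theorem res_trans (h : IsSpeAmalgamPair p M₁ M₂) {a b ν : CosetVertex M₁ M₂}
    (e : (cosetGraph M₁ M₂).Adj a b) (e' : (cosetGraph M₁ M₂).Adj a ν) :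
    ∃ g ∈ resOf p (pElementClosure p (stabilizer X a)), g • b = ν := by
  obtain ⟨T, hP⟩ := exists_sylIn p (stabilizer X a ⊓ stabilizer X b)
  have h1 := edge_ind (R := fun A B => ∀ P, SylIn p P (A ⊓ B) →
    A ⊓ normalizer (P : Set X) ≤ B) (fun P hP => by
      obtain ⟨S, rfl⟩ := hP.exists_sylow'
      exact (h.2.1 S).2.trans inf_le_right) (fun P hP => by
      rw [inf_comm] at hP
      obtain ⟨S, rfl⟩ := hP.exists_sylow'
      exact ((h.2.1 S).1.ge.trans (h.2.1 S).2).trans inf_le_left) (fun g A B h P hP => by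
      rw [← cj_inf] at hP
      have := cj_mono g (h _ (sylIn_cj_inv hP))
      rwa [cj_inf, cj_normalizer, cj_cj_inv] at this) e T hP
  obtain ⟨g, hg, rfl⟩ := trans_nbr e e'
  have h2 := sylIn_edge h.1 e hP
  have h3 := h2.mono (le_pEC h2.pgrp h2.le) (pEC_le _)
  haveI := (vp h.1 a).1
  haveI : Finite (pElementClosure p (stabilizer X a)) :=
    .of_injective _ (inclusion_injective (pEC_le _))
  obtain ⟨k, hk, e''⟩ := exists_cj_eq h3 (h3.cj_of_mem_normalizer (le_norm_pEC _ hg))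
  have h4 : k⁻¹ * g ∈ stabilizer X b := h1 (mem_inf.2
    ⟨mul_mem (inv_mem (pEC_le _ hk)) hg,
    mem_normalizer_iff_cj.2 (by rw [cj_mul, ← e'', cj_inv_cj])⟩)
  obtain ⟨r, hr, t, ht, rfl⟩ := exists_res_mul h3 hk
  refine ⟨r, hr, ?_⟩
  conv_lhs => rw [← mem_stabilizer_iff.1 (mul_mem (hP.le ht).2 h4), ← mul_smul, ← mul_assoc,
    mul_inv_cancel_left]

theorem false_of_norm (h : IsSpeAmalgamPair p M₁ M₂) {a b : CosetVertex M₁ M₂}
    (e : (cosetGraph M₁ M₂).Adj a b) {n : ℕ}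
    (h1 : vertexVIter p M₁ M₂ n b ≤ H8.Op p (stabilizer X a))
    (h2 : resOf p (pElementClosure p (stabilizer X a)) ≤
      normalizer ((vertexVIter p M₁ M₂ n b : Subgroup X) : Set X)) : False := by
  have h3 := le_nK.1 (h1.trans (Q_le_nK h.1 a))
  refine Z_ne_bot h.1 b (le_bot_iff.1 ((Z_le_V (n := n) (a := b) (by simp)).trans
    (eq_bot_of_trans h.1.1 e (le_inf h3.1 (h3.2 b e)) (fun ν e' => ?_) fun ν e' => ?_).le))
  · obtain ⟨g, hg, e''⟩ := res_trans h e e'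
    exact ⟨g, ⟨h2 hg, pEC_le _ (resOf_le _ _ hg)⟩, e''⟩
  · obtain ⟨g, hg, e''⟩ := trans_nbr e.symm e'
    exact ⟨g, ⟨le_norm_V h.1.1.1 n b hg, hg⟩, e''⟩

end Cfsg.Agent.H2.Am
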