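import Mathlib

/-! A Chevalley–Warning bound for squaring maps of `2`-groups of class two. -/

namespace Cfsg.Agent.H2

open Subgroup
open scoped commutatorElement IsMulCommutative

universe u

/-- functions of degree less than `d` -/
def Dg {V : Type*} [Group V] : ℕ → (V → ZMod 2) → Prop
  | 0, f => f = 0
  | d + 1, f => ∀ a, Dg d fun x => f (a * x) + f x

section
variable {V U : Type*} [Group V] [Group U] {d : ℕ} {f g : V → ZMod 2}

theorem dg_zero (d : ℕ) : Dg d (0 : V → ZMod 2) := by
  induction d with
  | zero => rfl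
  | succ d ih => exact fun a => by convert ih; simp

theorem Dg.succ (h : Dg d f) : Dg (d + 1) f := by
  induction d generalizing f with
  | zero => exact h ▸ dg_zero 1
  | succ d ih => exact fun a => ih (h a)

theorem Dg.mono {e : ℕ} (h : Dg d f) (he : d ≤ e) : Dg e f := by
  induction he with
  | refl => exact h
  | step _ ih => exact ih.succ

theorem Dg.add (h : Dg d f) (h' : Dg d g) : Dg d fun x => f x + g x := by
  induction d generalizing f g with
  | zero => rw [h, h']; exact funext fun x => by simp
  | succ d ih => exact fun a => by simpa only [add_add_add_comm] using ih (h a) (h' a)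

theorem Dg.shift (h : Dg d f) (b : V) : Dg d fun x => f (b * x) := by
  induction d generalizing f with
  | zero => rw [h]; rfl
  | succ d ih => exact fun a => by simpa [mul_assoc] using ih (h (b * a * b⁻¹))

theorem Dg.comp (h : Dg d f) (φ : U →* V) : Dg d fun x => f (φ x) := by
  induction d generalizing f with
  | zero => rw [h]; rfl
  | succ d ih => exact fun a => by simpa using ih (h (φ a))

theorem Dg.of_comp {φ : U →* V} (hφ : Function.Surjective φ) (h : Dg d fun x => f (φ x)) : Dg d f := by
  induction d generalizing f with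
  | zero => exact funext (hφ.forall.2 (congrFun h))
  | succ d ih => exact hφ.forall.2 fun a => ih (by simpa using h a)

theorem Dg.mul (n : ℕ) : ∀ {a b : ℕ} {f g : V → ZMod 2}, a + b = n + 1 → Dg a f → Dg b g → Dg n fun x => f x * g x := by
  induction n with
  | zero =>
    rintro (_ | a) (_ | b) f g e h h'
    · omega
    · rw [h]; exact funext fun x => by simp
    · rw [h']; exact funext fun x => by simp
    · omega
  | succ n ih =>
    rintro (_ | a) (_ | b) f g e h h'
    · omega
    · rw [h]; convert dg_zero _; simp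
    · rw [h']; convert dg_zero _; simp
    intro c
    convert (ih (by omega) (h c) (h'.shift c)).add (ih (by omega) h (h' c)) using 2 with x
    beta_reduce
    generalize f (c * x) = a, f x = b, g (c * x) = c, g x = d
    revert a b c d; decide

theorem dg_const (c : ZMod 2) : Dg 1 fun _ : V => c := fun _ => funext fun _ => CharTwo.add_self_eq_zero c

theorem dg_hom (h : ∀ x y, f (x * y) = f x + f y) : Dg 2 f := fun a => by
  simpa only [h, add_assoc, CharTwo.add_self_eq_zero, add_zero] using dg_const (V := V) (f a)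

theorem dg_prod {ι : Type*} (s : Finset ι) {F : ι → V → ZMod 2} (h : ∀ i, Dg 3 (F i)) :
    Dg (2 * s.card + 1) fun x => ∏ i ∈ s, F i x := by
  classical
  induction s using Finset.induction_on with
  | empty => simpa using dg_const 1
  | insert i s hi ih =>
    simp only [Finset.prod_insert hi, Finset.card_insert_of_notMem hi]
    exact Dg.mul _ (by omega) (h i) ih

end

theorem Dg.sum_eq_zero (n : ℕ) : ∀ {V : Type u} [Group V] [Fintype V] {f : V → ZMod 2}, Nat.card V = 2 ^ n → Dg n f →
    ∑ x, f x = 0 := by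
  classical
  induction n with
  | zero => exact fun _ h => by rw [h]; simp
  | succ n ih =>
    intro V _ _ f h1 h2
    obtain ⟨H, h3⟩ := Sylow.exists_subgroup_card_pow_prime 2 (h1 ▸ pow_dvd_pow 2 n.le_succ : 2 ^ n ∣ Nat.card V)
    have h4 : H.index = 2 := by
      have := H.index_mul_card
      rw [h1, h3, pow_succ'] at this
      exact Nat.eq_of_mul_eq_mul_right (pow_pos two_pos n) this
    obtain ⟨a, ha⟩ : ∃ a, a ∉ H := by
      by_contra! e
      rw [(eq_top_iff' H).2 e, index_top] at h4; omega
    rw [← Fintype.sum_subtype_add_sum_subtype (· ∈ H), ← (Equiv.subtypeEquiv (Equiv.mulLeft a) (p := (· ∈ H))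
      (q := (· ∉ H)) fun x => by simp [mul_mem_iff_of_index_two h4, ha]).sum_comp, add_comm, ← Finset.sum_add_distrib]
    exact ih h3 ((h2 a).comp H.subtype)

/-- if all involutions lie in a central subgroup `Z` of exponent two containing all squares, then `|Q : Z| ≤ |Z|²` -/
theorem index_le_sq {Q : Type u} [Group Q] [Finite Q] (hQ : IsPGroup 2 Q) {Z : Subgroup Q} (h1 : Z ≤ center Q)
    (h2 : ∀ x, x ^ 2 ∈ Z) (h3 : ∀ x, x ^ 2 = 1 ↔ x ∈ Z) : Z.index ≤ Nat.card Z ^ 2 := by
  classical
  haveI : Z.Normal := ⟨fun z hz g => by rwa [mem_center_iff.1 (h1 hz) g, mul_inv_cancel_right]⟩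
  haveI : IsMulCommutative Z := ⟨⟨fun a b => Subtype.ext (mem_center_iff.1 (h1 b.2) a)⟩⟩
  letI : Module (ZMod 2) (Additive Z) := AddCommGroup.zmodModule fun x => Additive.toMul.injective
    (Subtype.ext ((h3 _).2 x.toMul.2))
  haveI := Fintype.ofFinite (Q ⧸ Z)
  let b := Module.finBasis (ZMod 2) (Additive Z)
  have hc : ∀ x y : Q, ⁅x, y⁆ ∈ Z := fun x y => by
    convert Z.mul_mem (Z.mul_mem (h2 (x * y)) (h2 (y⁻¹ * x⁻¹ * y))) (h2 y⁻¹) using 1
    simp [commutatorElement_def, pow_two, mul_assoc]
  have hz : ∀ z ∈ Z, ∀ x, x * z = z * x := fun z hz => mem_center_iff.1 (h1 hz)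
  have hs : ∀ a x : Q, (a * x) ^ 2 = x ^ 2 * (a ^ 2 * ⁅x, a⁆) := fun a x => by
    rw [← hz _ (h2 x), pow_two a, mul_assoc a, hz _ (hc x a)]
    simp [commutatorElement_def, pow_two, mul_assoc]
  let q : Q ⧸ Z → Additive Z := Quotient.lift (fun x => .ofMul ⟨x ^ 2, h2 x⟩) fun x y h => by
    obtain ⟨z, rfl⟩ : ∃ z : Z, y = x * z := ⟨⟨_, QuotientGroup.leftRel_apply.1 h⟩, by simp⟩
    exact congrArg Additive.ofMul (Subtype.ext (show x ^ 2 = (x * z) ^ 2 by
      rw [Commute.mul_pow (hz _ z.2 x), (h3 _).2 z.2, mul_one]))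
  obtain ⟨n, hn⟩ := (hQ.to_quotient Z).exists_card_eq
  rw [index_eq_card, hn, Nat.card_congr (Additive.ofMul (α := Z)), Module.natCard_eq_pow_finrank (K := ZMod 2), Nat.card_zmod,
    ← pow_mul]
  refine Nat.pow_le_pow_right two_pos (not_lt.1 fun h => one_ne_zero (α := ZMod 2) ?_)
  rw [← ((dg_prod Finset.univ (F := fun i v => 1 + b.coord i (q v)) fun i => ((dg_const 1).mono (by omega)).add
    (Dg.of_comp (QuotientGroup.mk'_surjective Z) fun a => ?_)).mono (by simp; omega)).sum_eq_zero n hn,
    Finset.sum_eq_single 1 (fun v _ hv => ?_) (by simp)]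
  · simp [show q 1 = 0 from congrArg Additive.ofMul (Subtype.ext (one_pow 2))]
  · obtain ⟨x, rfl⟩ := QuotientGroup.mk_surjective v
    by_contra e
    refine hv ((QuotientGroup.eq_one_iff x).2 ((h3 x).1 (congrArg (fun z : Additive Z => z.toMul.1)
      (b.forall_coord_eq_zero_iff.1 fun i => ?_ : q x = 0))))
    have := Finset.prod_ne_zero_iff.1 e i (Finset.mem_univ i)
    generalize b.coord i (q x) = c at this
    revert c; decide
  · convert ((dg_const (b.coord i (q a))).succ).add (dg_hom (f := fun x => b.coord i (.ofMul ⟨_, hc x a⟩))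
      fun x y => ?_) using 2 with x
    · beta_reduce
      rw [show q (QuotientGroup.mk' Z (a * x)) = q (QuotientGroup.mk' Z x) + (q a + .ofMul ⟨_, hc x a⟩) from
        congrArg Additive.ofMul (Subtype.ext (hs a x)), map_add, map_add, add_right_comm, CharTwo.add_self_eq_zero, zero_add]
    · rw [add_comm, ← map_add]
      refine congrArg (fun z => b.coord i (.ofMul z)) (Subtype.ext (show ⁅x * y, a⁆ = ⁅y, a⁆ * ⁅x, a⁆ from ?_))
      rw [commutatorElement_def x, ← mul_assoc, ← mul_assoc, ← mul_assoc, ← hz _ (hc y a)]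
      simp [commutatorElement_def, mul_assoc]

end Cfsg.Agent.H2
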