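import Cfsg.Agent.H2.JC2
import Cfsg.Agent.H2.Invol2
import Cfsg.Agent.S0540

/-! `N`-groups of local characteristic two. -/

namespace Cfsg.Agent.H2.JC

open Subgroup Cfsg.Agent.H2 Cfsg.Agent.BG Cfsg.Agent.H2.FM
open Cfsg.Agent.H8 (Op Opp SN im pre kr RedFor Red)
open Cfsg.Agent.H9 (AE MA JJ II ms BM FFS TV EP Irr NatAct)
open scoped commutatorElement

universe u
variable {G : Type u} [Group G]
  {A B C D J K K' L L' M N P Q R S T T' U V W X Y : Subgroup G} {g : G}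

theorem tl_norm (hR : IsPGroup 2 R) (h : R ≠ ⊥) : IsTwoLocal (𝒩 R) := ⟨R, hR, h, rfl⟩

theorem tl_cj (h : IsTwoLocal L) (g : G) : IsTwoLocal (g ⋆ L) := by
  obtain ⟨R, h1, h2, rfl⟩ := h
  exact ⟨g ⋆ R, isPGroup_cj g h1, cj_ne_bot h2 g, cj_normalizer g R⟩

theorem tl_Op_ne (h : IsTwoLocal L) : Op 2 L ≠ ⊥ := by
  obtain ⟨R, h1, h2, rfl⟩ := h
  exact ne_bot_mono h2 (H8.le_Op le_normalizer le_rfl h1)

theorem mtl_norm (h : IsMaximalTwoLocal L) : 𝒩 (Op 2 L) = L :=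
  h.2 _ (tl_norm (H8.Op_isPGroup 2 L) (tl_Op_ne h.1)) (H8.le_normalizer_Op 2 L)

theorem mtl_norm_le (h : IsMaximalTwoLocal L) : 𝒩 L ≤ L :=
  (H8.normalizer_le_Op 2 L).trans (mtl_norm h).le

theorem mtl_cj (h : IsMaximalTwoLocal L) (g : G) : IsMaximalTwoLocal (g ⋆ L) :=
  ⟨tl_cj h.1 g, fun N h1 h2 => by rw [← h.2 _ (tl_cj h1 g⁻¹) (cj_le_iff.1 h2), cj_cj_inv]⟩

/-- straddling subgroups -/
structure ST (M T : Subgroup G) : Prop where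
  pg : IsPGroup 2 T
  ne : T ≠ ⊥
  le : T ≤ M
  ex : ∃ L, IsTwoLocal L ∧ T ≤ L ∧ ¬ L ≤ M

theorem st_iff : T ∈ straddlingTwoSubgroups M ↔ ST M T :=
  ⟨fun h => ⟨h.1, h.2.1, h.2.2.1, h.2.2.2⟩, fun h => ⟨h.1, h.2, h.3, h.4⟩⟩

/-- maximal straddling subgroups -/
structure MS (M T : Subgroup G) : Prop extends ST M T where
  max : ∀ T', ST M T' → JJ 2 T ≤ T' → JJ 2 T' = JJ 2 T ∧ ♯T' ≤ ♯T

/-- the hypothesis on `M` -/
structure HM (M : Subgroup G) : Prop where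
  zn : ZN G
  ex : ∃ S, SylIn 2 S ⊤ ∧ S ≤ M
  nj : ∀ S, SylIn 2 S ⊤ → S ≤ M → 𝒩 (JJ 2 S) ≤ M

variable [Finite G]

theorem ZN.ch' (z : ZN G) (h : IsTwoLocal L) : CH L := by
  obtain ⟨R, h1, h2, rfl⟩ := h
  exact z.ch h1 h2

theorem exists_mtl (h : IsTwoLocal L) : ∃ M, IsMaximalTwoLocal M ∧ L ≤ M := by
  obtain ⟨M, h1, h2⟩ := exists_maximal_ge_of_wellFoundedGT IsTwoLocal L h
  exact ⟨M, ⟨h2.1, fun N h3 h4 => le_antisymm (h2.2 h3 h4) h4⟩, h1⟩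

theorem meao_eq (hA : MA 2 T A) : maxElemAbelianOrder T = ♯A := by
  have : ((fun A : Subgroup T => ♯A) '' maxElementaryAbelianSubgroups 2 T) = {♯A} := by
    ext n
    constructor
    · rintro ⟨B, hB, rfl⟩
      exact (L.card_map_subtype B).symm.trans
        ((H9.ma_iff_image.2 ⟨B, H9.ma_top_elem.2 hB, rfl⟩).card_eq hA)
    · rintro rfl
      obtain ⟨B, hB, rfl⟩ := H9.ma_iff_image.1 hA
      exact ⟨B, H9.ma_top_elem.1 hB, (L.card_map_subtype B).symm⟩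
  rw [maxElemAbelianOrder, this, csSup_singleton]

theorem ms_of (h : T ∈ maxStraddlingTwoSubgroups M) : MS M T := by
  refine ⟨st_iff.1 h.1, fun T' h1 h2 => ?_⟩
  obtain ⟨A, hA⟩ := H9.exists_MA 2 T
  obtain ⟨A', hA'⟩ := H9.exists_MA 2 T'
  obtain ⟨h3, h4⟩ := h.2 T' (st_iff.2 h1)
  rw [meao_eq hA, meao_eq hA'] at h3 h4
  simp only [← H9.JJ_eq] at h4
  have h5 : JJ 2 T ≤ JJ 2 T' := H9.JJ_le_iff.2 fun B hB =>
    (hA'.of_card (hB.le_JJ.trans h2) hB.ae (h3.trans (hA.card_eq hB).le)).le_JJ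
  obtain ⟨h6, h7⟩ := h4 (le_antisymm h3 (hA'.max _ (hA.le_JJ.trans h2) hA.ae))
  have e := (eq_of_le_of_card_ge h5 h6).symm
  exact ⟨e, h7 (by rw [e])⟩

theorem exists_maxST (h : ST M T) : ∃ T', T' ∈ maxStraddlingTwoSubgroups M := by
  obtain ⟨T₀, h0, h1⟩ := Set.exists_max_image (straddlingTwoSubgroups M)
    (fun T => toLex (maxElemAbelianOrder T, toLex (♯(thompsonSubgroupOf 2 T), ♯T)))
    (Set.toFinite _) ⟨T, st_iff.2 h⟩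
  refine ⟨T₀, h0, fun T' h' => ?_⟩
  have := h1 T' h'
  simp only [Prod.Lex.toLex_le_toLex] at this
  omega

omit [Finite G] in
theorem ST.cj (h : ST M T) (hg : g ∈ M) : ST M (g ⋆ T) := by
  obtain ⟨L, h1, h2, h3⟩ := h.ex
  exact ⟨isPGroup_cj g h.pg, cj_ne_bot h.ne g, cj_le_of_le h.le hg, g ⋆ L, tl_cj h1 g,
    cj_mono g h2, fun e => h3 ((cj_le_iff.1 e).trans (cj_eq_of_mem (inv_mem hg)).le)⟩

omit [Finite G] in
theorem MS.cj (h : MS M T) (hg : g ∈ M) : MS M (g ⋆ T) := by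
  refine ⟨h.1.cj hg, fun T' h1 h2 => ?_⟩
  rw [← H9.cj_JJ] at h2 ⊢
  obtain ⟨h3, h4⟩ := h.max _ (h1.cj (inv_mem hg)) (cj_le_iff.1 h2)
  rw [← h3, H9.cj_JJ, cj_cj_inv, card_cj, ← card_cj g⁻¹ T']
  exact ⟨rfl, h4⟩

theorem ST.ms_of_syl (h : ST M S) (hS : SylIn 2 S ⊤) : MS M S :=
  ⟨h, fun _ h1 h2 => ⟨JJ_eq_of_syl hS h2 le_top h1.pg, hS.card_le h1.pg le_top⟩⟩

theorem hm_mk (z : ZN G) (hS : SylIn 2 S ⊤) (h : 𝒩 (JJ 2 S) ≤ M) : HM M := by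
  have h1 : S ≤ M := (le_normalizer.trans (H9.normalizer_le_JJ 2 S)).trans h
  refine ⟨z, ⟨S, hS, h1⟩, fun S' h2 h3 => ?_⟩
  obtain ⟨x, hx, rfl⟩ := (hS.mono h1 le_top).exists_cj_eq (h2.mono h3 le_top)
  rw [← H9.cj_JJ, ← cj_normalizer]
  exact cj_le_of_le h hx

theorem HM.exists_syl (h : HM M) (hT : IsPGroup 2 T) (h1 : T ≤ M) :
    ∃ S, SylIn 2 S ⊤ ∧ S ≤ M ∧ T ≤ S := by
  obtain ⟨S, hS, h2⟩ := h.ex
  obtain ⟨x, hx, h3⟩ := (hS.mono h2 le_top).exists_le_cj hT h1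
  exact ⟨x ⋆ S, hS.cj_of_mem trivial, cj_le_of_le h2 hx, h3⟩

theorem eq_of_norm_le (hS : IsPGroup 2 S) (h : T ≤ S) (h1 : S ⊓ 𝒩 T ≤ T) : T = S := by
  by_contra e
  exact (lt_inf_normalizer hS (lt_of_le_of_ne h e)).not_ge h1

theorem HM.se_iff (h : HM M) (hM : IsTwoLocal M) (hO : pCore 2 G = ⊥) :
    IsStronglyEmbedded M ↔ ∀ T, ¬ ST M T := by
  constructor
  · rintro se T ⟨h1, h2, h3, _, ⟨R, r1, r2, rfl⟩, h4, h5⟩
    obtain ⟨t, ht, o⟩ := H8.exists_orderOf_eq_prime (H8.dvd_card_of_isPGroup_ne_bot h1 h2)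
    obtain ⟨r, hr, o'⟩ := H8.exists_orderOf_eq_prime (H8.dvd_card_of_isPGroup_ne_bot
      (r1.to_le inf_le_left) (H1.inf_centralizer_ne_bot_of_isPGroup r1 h1 h4 r2))
    have hrM := se_centralizer se (h3 ht) o (hr.2 t ht).symm
    have hR : R ≤ M := by
      by_contra e
      obtain ⟨x, x1, x2, x3⟩ := exists_mem_normalizer_not_mem r1
        (lt_of_le_of_ne (inf_le_left : R ⊓ M ≤ R) fun e' => e (e'.ge.trans inf_le_right))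
      exact x3 ⟨x1, se_mem' se hrM o' ((x2 r).1 ⟨hr.1, hrM⟩).2⟩
    exact h5 fun x hx => se_mem' se hrM o' (hR ((hx r).1 hr.1))
  · intro hn
    obtain ⟨R, r1, r2, rfl⟩ := hM
    refine se_of (fun e => r2 (eq_bot_mono (hO ▸ H8.Op_top (G := G) 2)
      (H8.le_Op le_top e.ge r1))) (even_iff_two_dvd.2 ((H8.dvd_card_of_isPGroup_ne_bot r1 r2).trans
        (card_dvd_of_le le_normalizer))) fun g s hs o hg => ?_
    refine mem_of_normalizers_le (p := 2) (· ≠ ⊥) (fun _ _ e h => ne_bot_mono h e)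
      (fun g _ h => cj_ne_bot h g) (fun X h1 h2 h3 => ?_)
      (isPGroup_zpowers_ord2 ((orderOf_conj' g s).trans o))
      (ne_bot_of_mem (mem_zpowers _) (ord2_ne_one ((orderOf_conj' g s).trans o)))
      (zpowers_le.2 ⟨hg, conj_mem_cj g hs⟩)
    by_contra e
    exact hn X ⟨h2, h3, h1, _, tl_norm h2 h3, le_normalizer, e⟩

/-- the unique maximal `2`-local subgroup containing a component -/
structure UL (T K L : Subgroup G) : Prop where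
  zn : ZN G
  jk : JK (JJ 2 T) K
  max : IsMaximalTwoLocal L
  le : K ≤ L
  syl : SylIn 2 T L
  uniq : ∀ L', IsTwoLocal L' → K ⊔ JJ 2 T ≤ L' → L' ≤ L

namespace MS
variable (t : MS M T) (h : HM M)
include t

theorem J_ne : JJ 2 T ≠ ⊥ := H9.JJ_ne_bot (.inr rfl) t.pg t.ne

theorem eq_of_le (h1 : ST M T') (h2 : T ≤ T') : T' = T :=
  (eq_of_le_of_card_ge h2 (t.max T' h1 ((H9.JJ_le 2 T).trans h2)).2).symm

include h

theorem norm_J_le : 𝒩 (JJ 2 T) ≤ M := by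
  by_contra hc
  have n1 := le_normalizer.trans (H9.normalizer_le_JJ 2 T)
  obtain ⟨S, hS, h1, h2⟩ := h.exists_syl t.pg t.le
  have e := t.eq_of_le (T' := S ⊓ 𝒩 T) ⟨hS.pgrp.to_le inf_le_left, ne_bot_mono t.ne
    (le_inf h2 le_normalizer), inf_le_left.trans h1, _, tl_norm (JJ_pg t.pg) t.J_ne,
      inf_le_right.trans (H9.normalizer_le_JJ 2 T), hc⟩ (le_inf h2 le_normalizer)
  obtain rfl := eq_of_norm_le hS.pgrp h2 e.le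
  exact hc (h.nj _ hS h1)

theorem syl_le (hL : IsTwoLocal L) (hn : ¬ L ≤ M) (hP : IsPGroup 2 P) (h1 : P ≤ L)
    (h2 : JJ 2 T ≤ P) : ST M P := by
  have h3 : JJ 2 T ≤ P ⊓ M := le_inf h2 ((H9.JJ_le 2 T).trans t.le)
  have h4 : ST M (P ⊓ M) := ⟨hP.to_le inf_le_left, ne_bot_mono t.J_ne h3, inf_le_right, L, hL,
    inf_le_left.trans h1, hn⟩
  rwa [← eq_of_norm_le hP inf_le_left (le_inf inf_le_left (inf_le_right.trans
    ((H9.normalizer_le_JJ 2 _).trans ((t.max _ h4 h3).1 ▸ t.norm_J_le h))))]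

theorem JJ_eq (hL : IsTwoLocal L) (hn : ¬ L ≤ M) (hP : IsPGroup 2 P) (h1 : P ≤ L)
    (h2 : JJ 2 T ≤ P) : JJ 2 P = JJ 2 T := (t.max _ (t.syl_le h hL hn hP h1 h2) h2).1

theorem not_le_Op (hn : ¬ L ≤ M) : ¬ JJ 2 T ≤ Op 2 L := fun e => hn (by
  have h1 := ne_bot_mono t.J_ne e
  have h2 := H8.le_normalizer_Op 2 L
  have h3 := h2.trans (H9.normalizer_le_JJ 2 _)
  rw [t.JJ_eq h (tl_norm (H8.Op_isPGroup 2 L) h1) (fun e => hn (h2.trans e))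
    (H8.Op_isPGroup 2 L) le_normalizer e] at h3
  exact h3.trans (t.norm_J_le h))

theorem sylIn (hL : IsTwoLocal L) (hn : ¬ L ≤ M) (h1 : T ≤ L) : SylIn 2 T L :=
  ⟨h1, t.pg, fun _ h2 h3 h4 => t.eq_of_le (t.syl_le h hL hn h3 h2 ((H9.JJ_le 2 T).trans h4)) h4⟩

theorem exists_jk (hL : IsTwoLocal L) (hn : ¬ L ≤ M) (h1 : T ≤ L) :
    ∃ K ≤ L, JK (JJ 2 T) K ∧ ¬ K ≤ M :=
  (h.zn.ch' hL).exists_jk_not_le (t.sylIn h hL hn h1) (inf_le_right.trans (t.norm_J_le h)) hn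

theorem k0 (k : JK (JJ 2 T) K) (hn : ¬ K ≤ M) : K0 (JJ 2 T) K :=
  ⟨k, fun _ h1 h2 => t.JJ_eq h (tl_norm (ae_pg (ae_WW K)) k.W_ne) (fun e => hn (JK.nW.trans e))
    h2.pgrp h2.le h1⟩

theorem exists_out : ∃ K, JK (JJ 2 T) K ∧ ¬ K ≤ M ∧ Op 2 (K ⊔ T) ≠ ⊥ := by
  obtain ⟨L, h1, h2, h3⟩ := t.ex
  obtain ⟨K, h4, k, h5⟩ := t.exists_jk h h1 h3 h2
  exact ⟨K, k, h5, ne_bot_mono (tl_Op_ne h1) (H8.le_Op (le_sup_of_le_right (Op_le_sylIn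
    (t.sylIn h h1 h3 h2))) ((sup_le h4 h2).trans (H8.le_normalizer_Op 2 L)) (H8.Op_isPGroup 2 L))⟩

theorem exists_syl (hL : IsTwoLocal L) (hn : ¬ L ≤ M) (h1 : JJ 2 T ≤ L) :
    ∃ S, SylIn 2 S L ∧ JJ 2 S = JJ 2 T := by
  obtain ⟨S, hS, h2⟩ := exists_sylIn_ge (JJ_pg t.pg) h1
  exact ⟨S, hS, t.JJ_eq h hL hn hS.pgrp hS.le h2⟩

theorem exists_ul (k : JK (JJ 2 T) K) (hn : ¬ K ≤ M) (ho : Op 2 (K ⊔ T) ≠ ⊥) : ∃ L, UL T K L := by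
  have k0 := t.k0 h k hn
  have s1 : ∀ V, IsTwoLocal V → K ⊔ JJ 2 T ≤ V → ∀ g, g ⋆ K ≤ V → SN (g ⋆ K ⊔ JJ 2 T) (g ⋆ K) →
      SN V (g ⋆ K) := fun V h1 h2 g h3 h4 => by
    obtain ⟨S, hS, e⟩ := t.exists_syl h h1 (fun e => hn (le_sup_left.trans (h2.trans e)))
      (le_sup_right.trans h2)
    rw [← e] at h4 k0
    exact (h.zn.ch' h1).sn hS ((h.zn.ch' h1).jk_of_sn hS h3 h4 (k0.cj g)) h3
  have s2 : ∀ V, IsTwoLocal V → K ⊔ JJ 2 T ≤ V → SN V K := fun V h1 h2 => by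
    have := s1 V h1 h2 1
    rw [cj_one] at this
    exact this (le_sup_left.trans h2) (SN.of_norm le_sup_left (sup_le le_normalizer k.nJ))
  have hT : K ⊔ JJ 2 T ≤ 𝒩 (Op 2 (K ⊔ T)) :=
    (sup_le_sup_left (H9.JJ_le 2 T) K).trans (H8.le_normalizer_Op 2 _)
  obtain ⟨L, ⟨l1, l2⟩, l3⟩ := S0540.result K {V | IsTwoLocal V ∧ K ⊔ JJ 2 T ≤ V}
    ⟨_, tl_norm (H8.Op_isPGroup 2 _) ho, hT⟩ (fun V => {B | (∃ g, B = g ⋆ K) ∧ SN V B})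
    (fun V B => by simp only [Set.mem_setOf_eq, H8.sn_iff]; rfl)
    (fun V hV => ⟨⟨1, (cj_one K).symm⟩, s2 V hV.1 hV.2⟩)
    (by
      rintro V hV W hW B ⟨⟨g, rfl⟩, h1⟩ h2
      exact ⟨⟨g, rfl⟩, s1 V hV.1 hV.2 g h2 (h1.of_le le_sup_left
        (sup_le h1.le (le_sup_right.trans hW.2)))⟩)
    (fun V hV W hW => by
      have h1 : K ≤ sSup ({B | (∃ g, B = g ⋆ K) ∧ SN V B} ∩ {B | (∃ g, B = g ⋆ K) ∧ SN W B}) :=
        le_sSup ⟨⟨⟨1, (cj_one K).symm⟩, s2 V hV.1 hV.2⟩, ⟨1, (cj_one K).symm⟩, s2 W hW.1 hW.2⟩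
      refine ⟨_, ⟨tl_norm (H8.Op_isPGroup 2 _) (ne_bot_mono k.Op_ne (H8.Op_le_Op_of_sn 2
        ((s2 V hV.1 hV.2).of_le h1 (sSup_le fun B hB => hB.1.2.le)))), sup_le ((le_norm_of_le
          h1).trans (H8.normalizer_le_Op 2 _)) (le_trans ?_ (H8.normalizer_le_Op 2 _))⟩,
          H8.normalizer_le_Op 2 _⟩
      refine H8.le_normalizer_sSup ?_
      rintro a ha B ⟨⟨⟨g, rfl⟩, b1⟩, -, b2⟩
      have e : ∃ x, H8.cj (g ⋆ K) a = x ⋆ K := ⟨a * g, (cj_mul a g K).symm⟩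
      exact ⟨⟨e, b1.cj_of_mem (le_normalizer (hV.2 (mem_sup_right ha)))⟩, e,
        b2.cj_of_mem (le_normalizer (hW.2 (mem_sup_right ha)))⟩)
  exact ⟨L, h.zn, k, ⟨l1, fun N h1 h2 => le_antisymm (l3 N ⟨h1, l2.trans h2⟩) h2⟩,
    le_sup_left.trans l2, t.sylIn h l1 (fun e => hn (le_sup_left.trans (l2.trans e)))
      ((le_sup_right.trans (H8.le_normalizer_Op 2 _)).trans
        (l3 _ ⟨tl_norm (H8.Op_isPGroup 2 _) ho, hT⟩)), fun L' h1 h2 => l3 L' ⟨h1, h2⟩⟩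

end MS

end Cfsg.Agent.H2.JC
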