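import Cfsg.Agent.H2.JC3
import Cfsg.Agent.H2.Am4
import Cfsg.Agent.H7.SE
import Cfsg.Agent.H8.Conn

/-! `N`-groups of local characteristic two: the amalgam. -/

namespace Cfsg.Agent.H2.JC

open Subgroup Cfsg.Agent.H2 Cfsg.Agent.BG Cfsg.Agent.H2.FM Cfsg.Agent.H2.A3
open Cfsg.Agent.H8 (Op Opp SN)
open Cfsg.Agent.H9 (AE MA JJ II)
open scoped commutatorElement

universe u
variable {G : Type u} [Group G] [Finite G]
  {A B C D J K K' L L' M N P Q R S T T' U V W X Y : Subgroup G} {g : G}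

theorem OZ_le_OZJ (T : Subgroup G) : OZ T ≤ OZ (JJ 2 T) := fun x hx => by
  obtain ⟨h1, h2, h3⟩ := mem_OZ.1 hx
  rw [← II_eq_OZ]
  exact H9.mem_II.2 ⟨h1, H8.centralizer_anti (H9.JJ_le 2 T) h2, by rw [sq, h3]⟩

theorem pg_OZ (T : Subgroup G) : IsPGroup 2 (OZ T) := ae_pg (ae_OZ T)

theorem card_cases (hU : IsPGroup 2 U) (h : U ≠ ⊥) (h1 : ♯U ≤ 4) : ♯U = 2 ∨ ♯U = 4 := by
  have h2 := H8.dvd_card_of_isPGroup_ne_bot hU h
  have := two_le_card h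
  omega

theorem ZN.norm_OZ (z : ZN G) (hS : SylIn 2 S ⊤) : 𝒩 (OZ S) ≤ 𝒩 S := by
  have h1 : S ≤ 𝒞 (OZ S) := le_cent_comm.1 (OZ_le_cent S)
  have h2 : Op 2 (𝒞 (OZ S)) = S :=
    hS.max _ le_top (H8.Op_isPGroup 2 _) (H8.le_Op h1 (z.zz S hS) hS.pgrp)
  conv_rhs => rw [← h2]
  exact (H8.normalizer_le_normalizer_centralizer _).trans (H8.normalizer_le_Op 2 _)

namespace UL
variable (u : UL T K L)
include u

theorem ch : CH L := u.zn.ch' u.max.1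

omit [Finite G] in
theorem pg : IsPGroup 2 T := u.syl.pgrp

omit [Finite G] in
theorem KJ_le : K ⊔ JJ 2 T ≤ L := sup_le u.le ((H9.JJ_le 2 T).trans u.syl.le)

omit [Finite G] in
theorem norm_le (hR : IsPGroup 2 R) (h : R ≠ ⊥) (h1 : K ⊔ JJ 2 T ≤ 𝒩 R) : 𝒩 R ≤ L :=
  u.uniq _ (tl_norm hR h) h1

theorem mem_of_cj (h : g ⋆ (K ⊔ JJ 2 T) ≤ L) : g ∈ L := inv_mem_iff.1 (mtl_norm_le u.max
  (mem_normalizer_of_cj_le (u.uniq _ (tl_cj u.max.1 g⁻¹) (cj_le_iff.1 h))))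

omit [Finite G] in
theorem cj (g : G) : UL (g ⋆ T) (g ⋆ K) (g ⋆ L) :=
  ⟨u.zn, H9.cj_JJ g 2 T ▸ u.jk.cj g, mtl_cj u.max g, cj_mono g u.le, u.syl.cj g, fun L' h1 h2 => by
    rw [← H9.cj_JJ, ← cj_sup, cj_le_iff] at h2
    exact le_cj_iff.2 (u.uniq _ (tl_cj h1 _) h2)⟩

theorem OZ_le_of (hS : T ≤ S) : OZ S ≤ OZ T :=
  le_OZ (ae_OZ S) ((u.ch.OZ_le_Y ((Op_le_sylIn u.syl).trans hS)).trans ((OZ_le _).trans
    (Op_le_sylIn u.syl))) ((OZ_le_cent S).trans (H8.centralizer_anti hS))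

theorem eq_of_le (hS : IsPGroup 2 S) (h : T ≤ S) (h1 : 𝒩 T ≤ L) : T = S :=
  eq_of_norm_le hS h (u.syl.max _ (inf_le_right.trans h1) (hS.to_le inf_le_left)
    (le_inf h le_normalizer)).le

theorem card_Z : ♯(OZ (JJ 2 T)) = 2 * ♯↥(OZ (JJ 2 T) ⊓ 𝒞 (K ⊔ JJ 2 T)) := by
  have hJ := JJ_pg u.pg
  have := H1.card_sup_of_disjoint (A := OZ (JJ 2 T) ⊓ 𝒞 (K ⊔ JJ 2 T)) (K := OZ (JJ 2 T) ⊓ WW K)
    (inf_le_left.trans ((ae_OZ _).le_centralizer.trans ((H8.centralizer_anti inf_le_left).trans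
      (cent_le_norm _)))) (eq_bot_mono u.jk.W_inf_cent (le_inf (inf_le_right.trans inf_le_right)
        (inf_le_left.trans (inf_le_right.trans (H8.centralizer_anti le_sup_left)))))
  rw [u.jk.Z_eq hJ, u.jk.card_Z_inf_W hJ] at this
  omega

theorem cent_le (h : U ≤ OZ (JJ 2 T) ⊓ 𝒞 (K ⊔ JJ 2 T)) (h1 : U ≠ ⊥) : 𝒩 U ≤ L :=
  u.norm_le ((pg_OZ _).to_le (h.trans inf_le_left)) h1
    ((le_cent_comm.1 (h.trans inf_le_right)).trans (cent_le_norm _))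

theorem not_cj (hS : SylIn 2 S ⊤) (h : g ⋆ OZ S ≤ 𝒞 (K ⊔ JJ 2 T)) : False := by
  have h1 := (le_cent_comm.1 (cj_OZ g S ▸ h)).trans (u.zn.zz _ (hS.cj_of_mem (mem_top g)))
  have s := hS.cj_of_mem (mem_top g)
  refine u.jk.not_J_le s.pgrp (le_sup_left.trans h1) (le_sup_left.trans (s.max _ le_top
    (IsPGroup.to_sup_of_normal_right' (JJ_pg u.pg) s.pgrp (le_sup_right.trans h1)) le_sup_right).le)

theorem card_four (h : OZ (JJ 2 T) ⊓ 𝒞 (K ⊔ JJ 2 T) ≠ ⊥) (h1 : D ≤ OZ (JJ 2 T))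
    (h2 : ♯(OZ (JJ 2 T)) = 2 * ♯D) (h3 : OZ (JJ 2 T) ⊓ 𝒞 (K ⊔ JJ 2 T) ⊓ D = ⊥) :
    ♯(OZ (JJ 2 T)) = 4 := by
  have h4 := ((ix2_of_card inf_le_left u.card_Z.le).mono h1).card_le
  rw [h3, card_bot] at h4
  have := two_le_card h
  have := u.card_Z
  omega

theorem caseA (hS : SylIn 2 S ⊤) (hT : T ≤ S) (hn : ¬ 𝒩 (OZ (JJ 2 T)) ≤ L) :
    (OZ S = OZ (JJ 2 T) ∧ ♯(OZ (JJ 2 T)) = 2) ∨
      (OZ S = OZ (JJ 2 T) ∧ ♯(OZ (JJ 2 T)) = 4 ∧ T = S) ∨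
      (OZ T = OZ (JJ 2 T) ∧ ♯(OZ (JJ 2 T)) = 4 ∧
        (L ⊓ 𝒞 (OZ (JJ 2 T))).relIndex (𝒩 (OZ (JJ 2 T))) = 2) := by
  have hTn : T ≠ ⊥ := ne_bot_mono u.ch.ne (Op_le_sylIn u.syl)
  have z1 := OZ_ne_bot hS.pgrp (ne_bot_mono hTn hT)
  have z2 := u.OZ_le_of hT
  have z3 := OZ_le_OZJ T
  have c1 := u.card_Z
  by_cases hD : OZ (JJ 2 T) ⊓ 𝒞 (K ⊔ JJ 2 T) = ⊥
  · rw [hD, card_bot] at c1
    exact .inl ⟨eq_of_le_of_card_ge (z2.trans z3) (c1 ▸ two_le_card z1), c1⟩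
  obtain ⟨g, hg, h1⟩ := SetLike.not_le_iff_exists.1 hn
  have c2 := u.card_four hD (cj_le_of_norm inf_le_left hg) (by rw [card_cj, c1]) (by
    by_contra e
    refine h1 (u.mem_of_cj ((le_cent_comm.1 ?_).trans ((cent_le_norm _).trans
      (u.cent_le inf_le_left e))))
    rw [← cj_centralizer]
    exact inf_le_right.trans (cj_mono g inf_le_right))
  have l1 : 𝒞 (OZ (JJ 2 T)) ≤ L :=
    (H8.centralizer_anti inf_le_left).trans ((cent_le_norm _).trans (u.cent_le le_rfl hD))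
  have d := relIndex_centralizer_dvd_six c2 le_rfl
  right
  by_cases h3 : 3 ∣ (𝒞 (OZ (JJ 2 T))).relIndex (𝒩 (OZ (JJ 2 T)))
  · rcases card_cases (pg_OZ S) z1 (c2 ▸ card_le_of_le (z2.trans z3)) with e | e
    · obtain ⟨a, a1, a2⟩ := exists_ne_one z1
      obtain ⟨b, b1, b2⟩ := exists_ne_one hD
      obtain ⟨x, hx⟩ := isConj_iff.1 ((oddN_of_three_dvd le_rfl h3).isConj
        (SF.klein_iff.2 ⟨ae_OZ _, c2⟩) (z3 (z2 a1)) b1.1 a2 b2)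
      refine (u.not_cj hS (g := x) (cj_le_iff.2 ((ix2_of_card bot_le (by rw [card_bot, e])).le_of_mem
        (inf_le_left.trans bot_le) a1 a2 (mem_cj.2 (by simpa [hx] using b1.2))))).elim
    · have e1 := eq_of_le_of_card_ge (z2.trans z3) (by omega)
      exact .inl ⟨e1, c2, (u.syl.max _ ((le_cent_comm.1 (e1 ▸ OZ_le_cent S)).trans l1)
        hS.pgrp hT).symm⟩
  have i1 : (𝒞 (OZ (JJ 2 T))).relIndex (𝒩 (OZ (JJ 2 T))) = 2 :=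
    ((Nat.dvd_prime Nat.prime_two).1 (((Nat.Prime.coprime_iff_not_dvd Nat.prime_three).2
      h3).symm.dvd_of_dvd_mul_right (m := 2) d)).resolve_left
        fun e => hn ((relIndex_eq_one.1 e).trans l1)
  refine .inr ⟨le_antisymm z3 (le_OZ (ae_OZ _) ((OZ_le _).trans (H9.JJ_le 2 T))
    (le_cent_comm.1 ?_)), c2, by rwa [inf_eq_right.2 l1]⟩
  by_contra e
  obtain ⟨t, ht, h2⟩ := SetLike.not_le_iff_exists.1 e
  exact hn ((ix2_of_relIndex i1).le_of_mem (inf_le_left.trans l1) (norm_le_OZ _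
    (H9.normalizer_le_JJ 2 T (le_normalizer ht))) h2 (u.syl.le ht))

variable (e : OZ T = OZ (JJ 2 T))
include e

theorem T_norm : T ≤ 𝒩 K := u.ch.le_norm_of_Z u.syl u.jk u.le (ne_bot_mono
  ((one_lt_card_iff_ne_bot _).1 (by rw [u.jk.card_Z_inf_W (JJ_pg u.pg)]; norm_num))
  (inf_le_inf_right _ (e.ge.trans (le_inf (OZ_le T) (OZ_le_cent T)))))

omit e in
theorem P_le : K ⊔ T ≤ L := sup_le u.le u.syl.le

omit e in
theorem sylP : SylIn 2 T (K ⊔ T) := u.syl.mono le_sup_right u.P_le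

omit e in
theorem Op_le_Op : Op 2 L ≤ Op 2 (K ⊔ T) := H8.le_Op (le_sup_of_le_right (Op_le_sylIn u.syl))
  (u.P_le.trans (H8.le_normalizer_Op 2 L)) (H8.Op_isPGroup 2 L)

omit e in
theorem cenP : 𝒞 (Op 2 (K ⊔ T)) ≤ Op 2 (K ⊔ T) :=
  (H8.centralizer_anti u.Op_le_Op).trans (u.ch.cen.trans u.Op_le_Op)

theorem idx : T.relIndex (K ⊔ T) = 3 := by
  have h1 := H1.card_sup_mul_card_inf (u.T_norm e)
  have h2 : T ⊓ K = Op 2 K := (H1.eq_or_eq_of_relIndex_prime (by rw [u.jk.idx]; norm_num)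
    (le_inf ((u.jk.Op_le_Op (u.T_norm e)).trans (Op_le_sylIn u.sylP)) (H8.Op_le 2 K))
    inf_le_right).resolve_right fun e => u.jk.not_pg (u.pg.to_le (e.ge.trans inf_le_left))
  rw [h2, sup_comm, card_eq_relIndex_mul (H8.Op_le 2 K), u.jk.idx,
    card_eq_relIndex_mul (le_sup_right : T ≤ K ⊔ T), ← mul_assoc, mul_comm _ 3] at h1
  exact Nat.eq_of_mul_eq_mul_right Nat.card_pos (Nat.eq_of_mul_eq_mul_right Nat.card_pos h1)

theorem not_T_le : ¬ T ≤ Op 2 (K ⊔ T) := fun h => u.jk.not_J_le (H8.Op_isPGroup 2 _)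
  (le_sup_left.trans (H8.le_normalizer_Op 2 _)) ((H9.JJ_le 2 T).trans h)

theorem ix : (Op 2 (K ⊔ T)).relIndex T = 2 := by
  have n := u.T_norm e
  have h1 := relIndex_centralizer_dvd_six u.jk.card (sup_le JK.nW (n.trans (norm_le_WW K)))
  rw [← inf_relIndex_right, inf_comm, le_antisymm (u.jk.inf_cent_le u.pg n)
    (le_inf (H8.Op_le 2 _) (u.jk.Op_le_cent n)), ← relIndex_mul_relIndex _ _ _
    (Op_le_sylIn u.sylP) le_sup_right, u.idx e] at h1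
  exact ((Nat.dvd_prime Nat.prime_two).1 (Nat.dvd_of_mul_dvd_mul_right (by norm_num) h1)).resolve_left
    fun h => u.not_T_le e (relIndex_eq_one.1 h)

theorem loc : Loc (K ⊔ T) T :=
  ⟨le_sup_right, u.pg, u.idx e ▸ Nat.prime_three, by rw [u.idx e]; norm_num, u.ix e,
    inf_le_right.trans u.cenP, fun h => by
      have := u.jk.card_Z_inf_W (JJ_pg u.pg)
      rw [eq_bot_mono u.jk.W_inf_cent (le_inf inf_le_right (inf_le_left.trans (e.ge.trans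
        (le_cent_comm.1 (le_sup_left.trans h))))), card_bot] at this
      omega⟩

omit e in
theorem bot (h : ¬ K' ≤ L) : ∀ N ≤ T, K ⊔ T ≤ 𝒩 N → K' ⊔ T ≤ 𝒩 N → N = ⊥ := fun N h1 h2 h3 => by
  by_contra e
  exact h (le_sup_left.trans (h3.trans (u.norm_le (u.pg.to_le h1) e
    ((sup_le_sup_left (H9.JJ_le 2 T) K).trans h2))))

omit e in
theorem not_le_of (hg : g ∈ 𝒩 T) (h : g ∉ L) : ¬ g ⋆ K ≤ L := fun h1 => h (u.mem_of_cj (by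
  rw [cj_sup, H9.cj_JJ, cj_eq_of_mem_normalizer hg]
  exact sup_le h1 ((H9.JJ_le 2 T).trans u.syl.le)))

omit e in
theorem eq_of_A (hS : SylIn 2 S ⊤) (hT : T ≤ S) (hn : ¬ 𝒩 (OZ (JJ 2 T)) ≤ L) :
    OZ T = OZ (JJ 2 T) := by
  rcases u.caseA hS hT hn with h | h | h
  exacts [le_antisymm (OZ_le_OZJ T) (h.1.ge.trans (u.OZ_le_of hT)),
    le_antisymm (OZ_le_OZJ T) (h.1.ge.trans (u.OZ_le_of hT)), h.1]

theorem aeQ (hg : g ∈ 𝒩 T) (h : g ∉ L) : AE 2 (Op 2 (K ⊔ T)) ∧ g ∉ 𝒩 (Op 2 (K ⊔ T)) := by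
  have l := u.loc e
  have l' := l.cj g
  have e1 := cj_eq_of_mem_normalizer hg
  have b := u.bot (u.not_le_of hg h)
  rw [← e1, ← cj_sup, e1] at b
  rw [e1] at l'
  refine ⟨(amalgam l l' (by rw [← relIndex_cj g, e1]) b).1.ae, fun h1 => ?_⟩
  exact ne_bot_mono u.ch.ne u.Op_le_Op (b _ l.Q_le Loc.nQ (by
    rw [← cj_eq_of_mem_normalizer h1, ← cj_normalizer]; exact cj_mono g Loc.nQ))

theorem le_OZ_of (hS : IsPGroup 2 S) (hT : T ≤ S) (hne : T ≠ S) (hY : AE 2 Y) (h1 : Y ≤ S)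
    (h2 : S ≤ 𝒩 Y) : Y ≤ OZ T := by
  have l := u.loc e
  have a : ∀ g ∈ S, g ∈ 𝒩 T → g ∉ T → AE 2 (Op 2 (K ⊔ T)) ∧ ¬ g ⋆ Op 2 (K ⊔ T) ≤ Op 2 (K ⊔ T) :=
    fun g g1 g2 g3 => (u.aeQ e g2 fun h => g3 ((u.syl.max _ inf_le_right (hS.to_le inf_le_left)
      (le_inf hT u.syl.le)).le ⟨g1, h⟩)).imp_right fun h h' => h (mem_normalizer_of_cj_le h')
  obtain ⟨t, t1, t2, t3⟩ := exists_mem_normalizer_not_mem hS (lt_of_le_of_ne hT hne)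
  obtain ⟨ae, t4⟩ := a t t1 t2 t3
  have o1 := l.OZ_le_Z.trans l.Z_le_Q
  have q1 := l.Q_le
  have i1 := l.ix2
  generalize Op 2 (K ⊔ T) = Q at *
  have inv : ∀ {X : Subgroup G}, AE 2 X → ∀ x ∈ X, x⁻¹ = x := fun h x hx =>
    inv_eq_of_mul_eq_one_right (sq x ▸ h.2 x hx)
  have k : ∀ q ∈ Q, ∀ r ∈ T, r ∉ Q → r * q = q * r → q ∈ OZ T := fun q hq r hr h3 h4 =>
    le_OZ (ae.of_le (zpowers_le.2 hq)) ((zpowers_le.2 hq).trans q1) (le_cent_comm.1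
      (i1.le_of_mem (inf_le_left.trans (ae.le_centralizer.trans (H8.centralizer_anti
        (zpowers_le.2 hq)))) hr h3 (by
          rw [zpowers_eq_closure, centralizer_closure, mem_centralizer_singleton_iff, h4])))
      (mem_zpowers q)
  have n : ∀ g ∈ 𝒩 T, ∀ x, x ∈ OZ T ↔ g * x * g⁻¹ ∈ OZ T := fun g hg => norm_le_OZ T hg
  have s1 : Y ≤ T := by
    by_contra h
    obtain ⟨x, x1, x2, x3⟩ := exists_mem_normalizer_not_mem (hS.to_le (sup_le hT h1))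
      (lt_of_le_of_ne le_sup_left fun e : T = T ⊔ Y => h (le_sup_right.trans e.ge))
    obtain ⟨s, hs, y, hy, rfl⟩ := (H1.mem_sup_left_norm (hT.trans h2)).1 x1
    rw [mul_mem_cancel_left (le_normalizer hs)] at x2
    rw [mul_mem_cancel_left hs] at x3
    obtain ⟨_, ⟨q, hq, rfl⟩, h3⟩ := SetLike.not_le_iff_exists.1 (a y (h1 hy) x2 x3).2
    have h4 : y * (q * y⁻¹ * q⁻¹) ∈ Y := mul_mem hy ((h2 (hT (q1 hq)) _).1 (inv_mem hy))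
    refine h3 (o1 ((n y x2 q).1 (k q hq _ ((x2 q).1 (q1 hq)) h3 ?_)))
    have := inv hY _ h4
    simp only [mul_inv_rev, inv_inv, inv ae q hq, mul_assoc] at this ⊢
    exact this.symm
  have ae' : AE 2 (t ⋆ Q) := ae.map _
  have i2 : Ix2 (t ⋆ Q) T := cj_eq_of_mem_normalizer t2 ▸ AM.ix2_cj i1 t
  have o2 : OZ T ≤ t ⋆ Q := (cj_eq_of_mem_normalizer (norm_le_OZ T t2)).ge.trans (cj_mono t o1)
  obtain ⟨r, r1, r2⟩ := SetLike.not_le_iff_exists.1 t4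
  have r3 := cj_le_of_norm q1 t2 r1
  have s2 : Y ≤ Q := fun y hy => by
    by_contra h
    by_cases h3 : y ∈ t ⋆ Q
    · have h4 : t⁻¹ * y * t⁻¹⁻¹ ∈ Y := (h2 (inv_mem t1) y).1 hy
      exact h (o1 ((n _ (inv_mem t2) y).2 (k _ (by simpa using mem_cj.1 h3) y (s1 hy) h
        (hY.comm hy h4))))
    · have h4 := i1 y (s1 hy) r r3 h r2
      refine h3 ((mul_mem_cancel_right r1).1 (o2 (k _ h4 r r3 r2 ?_)))
      have h5 := inv ae _ h4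
      rw [mul_inv_rev, inv ae' r r1, inv hY y hy] at h5
      conv_lhs => rw [← h5]
      rw [mul_assoc, ← mul_assoc r, ← sq, ae'.2 r r1, mul_one, one_mul]
  exact fun y hy => k y (s2 hy) r r3 r2 (ae'.comm r1
    (cj_mono t s2 ((cj_eq_of_mem_normalizer (h2 t1)).ge hy)))

omit e in
theorem st_of (hO : pCore 2 G = ⊥) (hS : SylIn 2 T ⊤) (hn : 𝒩 (OZ (JJ 2 T)) ≤ L) : ST L T := by
  by_contra ns
  have hm : HM L := hm_mk u.zn hS ((norm_le_OZ _).trans hn)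
  have nse : ¬ IsStronglyEmbedded L := fun se => u.jk.not_J_le (H8.Op_isPGroup 2 L)
    (u.le.trans (H8.le_normalizer_Op 2 L)) (H9.JJ_le_iff.2 fun A hA a ha => by
      by_cases h1 : a = 1
      · exact h1 ▸ one_mem _
      obtain ⟨z, z1, z2⟩ := exists_ne_one (OZ_ne_bot u.pg (ne_bot_mono u.ch.ne (Op_le_sylIn u.syl)))
      have o := ord2_of (mem_OZ.1 z1).2.2 z2
      obtain ⟨x, rfl⟩ := isConj_iff.1 (H7.se_isConj se o (ord2_of (sq a ▸ hA.ae.2 a ha) h1))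
      exact (H8.le_normalizer_Op 2 L (se_mem' se (u.syl.le (OZ_le T z1)) o (u.syl.le (hA.le ha)))
        z).1 (OZ_le _ (u.ch.OZ_le_Y (Op_le_sylIn u.syl) z1)))
  rw [hm.se_iff u.max.1 hO, not_forall_not] at nse
  obtain ⟨T₀, h0⟩ := nse
  obtain ⟨T₀, h0⟩ := exists_maxST h0
  obtain ⟨x, hx, h1⟩ := u.syl.exists_le_cj (ms_of h0).pg (ms_of h0).le
  have t := (ms_of h0).cj (inv_mem hx)
  rw [le_cj_iff] at h1
  generalize x⁻¹ ⋆ T₀ = T₁ at t h1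
  have hne : T₁ ≠ T := fun e => ns (e ▸ t.1)
  obtain ⟨K₁, k, h2, h3⟩ := t.exists_out hm
  obtain ⟨L₁, v⟩ := t.exists_ul hm k h2 h3
  have h4 : ¬ 𝒩 (OZ (JJ 2 T₁)) ≤ L₁ := fun h => hne (v.eq_of_le u.pg h1
    ((H9.normalizer_le_JJ 2 _).trans ((norm_le_OZ _).trans h)))
  have e := v.eq_of_A hS h1 h4
  have h5 := (u.ch.W_le u.syl u.jk u.le).trans ((v.le_OZ_of e u.pg h1 hne (ae_OZ _)
    ((OZ_le _).trans (Op_le_sylIn u.syl)) (u.syl.le.trans CH.nY)).trans e.le)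
  have c := u.jk.card ▸ card_le_of_le h5
  rcases v.caseA hS h1 h4 with h | h | h
  · omega
  · exact hne h.2.2
  · rw [← eq_of_le_of_card_ge h5 (by rw [h.2.1, u.jk.card])] at h
    exact u.jk.not_cent (u.jk.res.ge.trans (resOf_le_of_pow_mem fun g hg => ⟨1, by
      rw [pow_one, sq]; exact ((ix2_of_relIndex h.2.2).sq (JK.nW hg)).2⟩))

omit e in
theorem other_of (hO : pCore 2 G = ⊥) (hS : SylIn 2 T ⊤) (hn : 𝒩 (OZ (JJ 2 T)) ≤ L) :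
    ∃ K' L', UL T K' L' ∧ ¬ K' ≤ L := by
  have hm : HM L := hm_mk u.zn hS ((norm_le_OZ _).trans hn)
  have t := (u.st_of hO hS hn).ms_of_syl hS
  obtain ⟨K₁, k, h2, h3⟩ := t.exists_out hm
  obtain ⟨L₁, v⟩ := t.exists_ul hm k h2 h3
  exact ⟨K₁, L₁, v, h2⟩

omit e in
theorem cases (hO : pCore 2 G = ⊥) (hS : SylIn 2 S ⊤) (hT : T ≤ S) :
    (OZ S = OZ (JJ 2 T) ∧ ♯(OZ (JJ 2 T)) = 2) ∨
      (OZ S = OZ (JJ 2 T) ∧ ♯(OZ (JJ 2 T)) = 4 ∧ T = S) ∨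
      (OZ T = OZ (JJ 2 T) ∧ ♯(OZ (JJ 2 T)) = 4 ∧
        (L ⊓ 𝒞 (OZ (JJ 2 T))).relIndex (𝒩 (OZ (JJ 2 T))) = 2) := by
  by_cases hn : 𝒩 (OZ (JJ 2 T)) ≤ L
  swap
  · exact u.caseA hS hT hn
  obtain rfl := u.eq_of_le hS.pgrp hT ((H9.normalizer_le_JJ 2 _).trans ((norm_le_OZ _).trans hn))
  obtain ⟨K', L', v, h⟩ := u.other_of hO hS hn
  have z1 := OZ_ne_bot u.pg (ne_bot_mono u.ch.ne (Op_le_sylIn u.syl))
  have z3 := OZ_le_OZJ T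
  have c1 := u.card_Z
  by_cases hD : OZ (JJ 2 T) ⊓ 𝒞 (K ⊔ JJ 2 T) = ⊥
  · rw [hD, card_bot] at c1
    exact .inl ⟨eq_of_le_of_card_ge z3 (c1 ▸ two_le_card z1), c1⟩
  have k : ∀ U ≠ ⊥, U ≤ OZ (JJ 2 T) ⊓ 𝒞 (K' ⊔ JJ 2 T) → ¬ 𝒩 U ≤ L := fun U h1 h2 h3 =>
    h (le_sup_left.trans ((le_cent_comm.1 (h2.trans inf_le_right)).trans ((cent_le_norm _).trans h3)))
  have b : OZ (JJ 2 T) ⊓ 𝒞 (K ⊔ JJ 2 T) ⊓ (OZ (JJ 2 T) ⊓ 𝒞 (K' ⊔ JJ 2 T)) = ⊥ := by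
    by_contra e
    exact k _ e inf_le_right (u.cent_le inf_le_left e)
  have c2 := u.card_four hD inf_le_left v.card_Z b
  refine .inr (.inl ⟨le_antisymm z3 (le_OZ (ae_OZ _) ((OZ_le _).trans (H9.JJ_le 2 T)) ?_), c2, rfl⟩)
  by_contra e
  have c3 := v.card_Z
  have hD' : OZ (JJ 2 T) ⊓ 𝒞 (K' ⊔ JJ 2 T) ≠ ⊥ := (one_lt_card_iff_ne_bot _).1 (by omega)
  obtain ⟨z, z4, z2⟩ := exists_ne_one z1
  obtain ⟨d, d1, d2⟩ := exists_ne_one hD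
  obtain ⟨f, f1, f2⟩ := exists_ne_one hD'
  have c4 : ♯(OZ T) = 2 := (card_cases (pg_OZ T) z1 (c2 ▸ card_le_of_le z3)).resolve_right fun e' =>
    e (eq_of_le_of_card_ge z3 (by omega) ▸ OZ_le_cent T)
  have i0 : Ix2 ⊥ (OZ T) := ix2_of_card bot_le (by rw [card_bot, c4])
  have nz : ∀ {K L}, UL T K L → ∀ x ∈ 𝒞 (K ⊔ JJ 2 T), x ≠ 1 → x ∉ OZ T := fun u x h1 h2 h3 =>
    u.not_cj hS (g := 1) (by
      rw [cj_one]; exact i0.le_of_mem (inf_le_left.trans bot_le) h3 h2 h1)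
  have i1 := ix2_of_card z3 (by omega)
  obtain ⟨s, hs, h1⟩ : ∃ s ∈ T, s * d * s⁻¹ ≠ d := by
    by_contra! h1
    exact nz u d d1.2 d2 (mem_OZ.2 ⟨H9.JJ_le 2 T (OZ_le _ d1.1),
      fun s hs => mul_inv_eq_iff_eq_mul.1 (h1 s hs), (mem_OZ.1 d1.1).2.2⟩)
  have m1 : s * d * s⁻¹ ∈ OZ (JJ 2 T) :=
    (norm_le_OZ _ (H9.normalizer_le_JJ 2 T (le_normalizer hs)) d).1 d1.1
  have m2 : s * d * s⁻¹ ∉ OZ T := fun h => nz u d d1.2 d2 ((norm_le_OZ _ (le_normalizer hs) d).2 h)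
  have m3 : s * d * s⁻¹ = f := by
    have := i0 _ (i1.inv_mul m1 d1.1 m2 (nz u d d1.2 d2)) _ (i1.inv_mul d1.1 f1.1 (nz u d d1.2 d2)
      (nz v f f1.2 f2)) (fun e => h1 (inv_mul_eq_one.1 e))
      fun e => f2 (b.le ⟨inv_mul_eq_one.1 e ▸ d1, f1⟩)
    rwa [mem_bot, mul_assoc, mul_inv_cancel_left, inv_mul_eq_one] at this
  refine k (s ⋆ zpowers d) (cj_ne_bot (zpowers_ne_bot.2 d2) s)
    (cj_le_iff.2 (zpowers_le.2 (mem_cj.2 (by simpa [m3] using f1)))) ?_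
  rw [← cj_normalizer]
  exact cj_le_of_le (u.cent_le (zpowers_le.2 d1) (zpowers_ne_bot.2 d2)) (u.syl.le hs)

omit e in
theorem OZ_eq (hO : pCore 2 G = ⊥) : OZ T = OZ (JJ 2 T) := by
  obtain ⟨S, hS, hT⟩ := exists_sylIn_ge u.pg le_top
  rcases u.cases hO hS hT with h | h | h
  exacts [le_antisymm (OZ_le_OZJ T) (h.1.ge.trans (u.OZ_le_of hT)),
    le_antisymm (OZ_le_OZJ T) (h.1.ge.trans (u.OZ_le_of hT)), h.1]

omit e in
theorem other (hO : pCore 2 G = ⊥) : ∃ K' L', UL T K' L' ∧ ¬ K' ≤ L := by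
  by_cases h : 𝒩 T ≤ L
  · obtain ⟨S, hS, hT⟩ := exists_sylIn_ge u.pg le_top
    obtain rfl := u.eq_of_le hS.pgrp hT h
    exact u.other_of hO hS (u.OZ_eq hO ▸ (u.zn.norm_OZ hS).trans h)
  · obtain ⟨g, hg, h1⟩ := SetLike.not_le_iff_exists.1 h
    exact ⟨_, _, cj_eq_of_mem_normalizer hg ▸ u.cj g, u.not_le_of hg h1⟩

theorem eq_P (r : Res (K ⊔ T) T) : L = K ⊔ T := by
  have e1 : Op 2 L = Op 2 (K ⊔ T) := le_antisymm u.Op_le_Op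
    ((r.ae.le_centralizer.trans (H8.centralizer_anti u.Op_le_Op)).trans u.ch.cen)
  have c : ♯(Op 2 L) ≤ 8 := by rw [e1]; rcases r.card with h | h <;> omega
  have w := (u.ch.W_le u.syl u.jk u.le).trans (OZ_le _)
  have i := ix2_of_card w (by rw [u.jk.card]; omega)
  have nL := H8.le_normalizer_Op 2 L
  have n : L ≤ 𝒩 (WW K) := fun g hg => norm_le_WW K (u.ch.mem_norm u.syl u.jk u.le hg fun h => by
    have := (i.mono (cj_le_of_norm w (nL hg))).card_le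
    rw [h, card_bot, card_cj, u.jk.card] at this
    omega)
  have h1 : L ⊓ 𝒞 (WW K) ≤ Op 2 L := by
    have r1 := resOf_le 2 (L ⊓ 𝒞 (WW K))
    refine H8.le_Op inf_le_left (le_norm_inf_cent le_normalizer n) (H8.resOf_eq_bot_iff.1 ?_)
    rw [← resOf_resOf]
    exact resOf_eq_bot_of_isPGroup ((H8.Op_isPGroup 2 L).to_le ((H8.resOf_le_centralizer_of_chain
      (H8.Op_isPGroup 2 L) (inf_le_left.trans nL) (comm_le_of_ix2 i ((r1.trans inf_le_left).trans nL)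
        ((r1.trans inf_le_left).trans n)) (r1.trans inf_le_right)).trans u.ch.cen))
  have h2 := Nat.le_of_dvd (by norm_num) (relIndex_centralizer_dvd_six u.jk.card n)
  rw [← inf_relIndex_right, inf_comm] at h2
  refine (eq_of_le_of_card_ge u.P_le ?_).symm
  rw [r.card_H, card_eq_relIndex_mul (inf_le_left : L ⊓ 𝒞 (WW K) ≤ L), ← e1]
  exact Nat.mul_le_mul h2 (card_le_of_le h1)

end UL

end Cfsg.Agent.H2.JC
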