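import Cfsg.Agent.H2.JC4

/-! `N`-groups of local characteristic two: groups of `S₄`-type. -/

namespace Cfsg.Agent.H2.JC

open Subgroup Cfsg.Agent.H2 Cfsg.Agent.BG Cfsg.Agent.H2.FM Cfsg.Agent.H2.A3
open Cfsg.Agent.H8 (Op Opp SN)
open Cfsg.Agent.H9 (AE MA JJ II)
open scoped commutatorElement

universe u
variable {G : Type u} [Group G] [Finite G]
  {A B C D J K K' L L' M N P Q R S T T' U V W X Y : Subgroup G} {a d d' g s x y z : G}

omit [Finite G] in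
theorem ae_inv (h : AE 2 X) (hx : x ∈ X) : x⁻¹ = x := inv_eq_of_mul_eq_one_right (sq x ▸ h.2 x hx)

omit [Finite G] in
theorem ae_sq (h : AE 2 X) (hx : x ∈ X) : x * x = 1 := sq x ▸ h.2 x hx

omit [Finite G] in
theorem comm_le_of_ix2' (h : Ix2 T S) (h1 : S ≤ 𝒩 D) (h2 : ⁅T, S⁆ ≤ D) : ⁅S, S⁆ ≤ D := by
  refine commutator_le.2 fun x hx y hy => ?_
  by_cases e : x ∈ T
  · exact h2 (commutator_mem_commutator e hy)
  by_cases e' : y ∈ T
  · rw [← commutatorElement_inv, inv_mem_iff]; exact h2 (commutator_mem_commutator e' hx)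
  have := (h1 hx _).1 (inv_mem (h2 (commutator_mem_commutator (h.inv_mul hx hy e e') hx)))
  rwa [show x * ⁅x⁻¹ * y, x⁆⁻¹ * x⁻¹ = ⁅x, y⁆ by simp only [commutatorElement_def]; group] at this

/-- one side of the amalgam -/
structure SD (T K L : Subgroup G) : Prop extends UL T K L where
  e : OZ T = OZ (JJ 2 T)
  eq : K ⊔ T = L
  r : Res L T

namespace SD
variable (u : SD T K L)
include u

theorem W_le : WW K ≤ Op 2 L := (u.ch.W_le u.syl u.jk u.le).trans (OZ_le _)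

theorem c8 : ♯(Op 2 L) ≤ 8 := by rcases u.r.card with h | h <;> omega

theorem ixW : Ix2 (WW K) (Op 2 L) := ix2_of_card u.W_le (by rw [u.jk.card]; exact u.c8)

theorem nW : L ≤ 𝒩 (WW K) := u.eq.ge.trans (sup_le JK.nW ((u.T_norm u.e).trans (norm_le_WW K)))

omit [Finite G] in
theorem norm_eq (hR : IsPGroup 2 R) (h : R ≠ ⊥) (h1 : L ≤ 𝒩 R) : 𝒩 R = L :=
  u.max.2 _ (tl_norm hR h) h1

theorem normW : 𝒩 (WW K) = L := u.norm_eq (ae_pg (ae_WW K)) u.jk.W_ne u.nW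

theorem centW : 𝒞 (WW K) ≤ Op 2 L := by
  have := u.jk.inf_cent_le u.pg (u.T_norm u.e)
  rw [u.eq] at this
  exact (le_inf ((cent_le_norm _).trans u.normW.le) le_rfl).trans this

theorem res : resOf 2 L = K := u.eq ▸ u.jk.res_sup u.pg (u.T_norm u.e)

theorem OZ_le : OZ T ≤ Op 2 L := u.r.1.OZ_le_Z.trans u.r.1.Z_le_Q

theorem inf_K : T ⊓ K ≤ WW K := by
  have h2 : T ⊓ K = Op 2 K := (H1.eq_or_eq_of_relIndex_prime (by rw [u.jk.idx]; norm_num)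
    (le_inf ((u.ch.Op_le u.syl u.jk u.le).trans u.r.1.Q_le) (H8.Op_le 2 K))
    inf_le_right).resolve_right fun e => u.jk.not_pg (u.pg.to_le (e.ge.trans inf_le_left))
  have h3 := u.ch.Op_le u.syl u.jk u.le
  rw [h2]
  rcases u.ixW.eq_or (WW_le_Op K) h3 with e | e
  · exact e.le
  rcases u.r.card with c | ⟨-, d, d1, d2, d3⟩
  · exact (eq_of_le_of_card_ge (WW_le_Op K) (by rw [e, c, u.jk.card])).ge
  haveI := (u.r.ae.of_le h3).1
  exact (d2 (eq_one_of_mem_commutator_center (H8.Op_le 2 K) (e.ge d1) (by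
    rw [u.jk.idx, orderOf_eq_prime (u.r.ae.2 d d1) d2]; norm_num) (le_commutator_of_resOf_eq u.jk.res
      (H8.Op_isPGroup 2 K) (H8.Op_le 2 K) (e.ge d1)) (H8.centralizer_anti u.le d3))).elim

theorem isConj (hx : x ∈ WW K) (hy : y ∈ WW K) (h1 : x ≠ 1) (h2 : y ≠ 1) : IsConj x y := by
  obtain ⟨g, h3, h4, h5⟩ : ∃ g ∈ K, (orderOf g).Coprime 2 ∧ g ∉ 𝒞 (WW K) := by
    by_contra! h
    exact u.jk.not_cent (u.jk.res.ge.trans (resOf_le_iff.2 h))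
  exact OddN.isConj ⟨g, JK.nW h3, h4, h5⟩ (SF.klein_iff.2 ⟨ae_WW K, u.jk.card⟩) hx hy h1 h2

theorem mem_OZ_of (hx : x ∈ Op 2 L) (hy : y ∈ T) (h1 : y ∉ Op 2 L) (h : y * x = x * y) :
    x ∈ OZ T :=
  le_OZ (u.r.ae.of_le (zpowers_le.2 hx)) ((zpowers_le.2 hx).trans u.r.1.Q_le) (le_cent_comm.1
    (u.r.1.ix2.le_of_mem (inf_le_left.trans (u.r.ae.le_centralizer.trans (H8.centralizer_anti
      (zpowers_le.2 hx)))) hy h1 (by
        rw [zpowers_eq_closure, centralizer_closure, mem_centralizer_singleton_iff, h])))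
    (mem_zpowers x)

theorem mem_of_comm (h1 : d ∈ Op 2 L) (h2 : d ≠ 1) (h3 : d ∈ 𝒞 L) (h : g * d * g⁻¹ = d) : g ∈ L :=
  (u.norm_eq ((H8.Op_isPGroup 2 L).to_le (zpowers_le.2 h1)) (zpowers_ne_bot.2 h2)
    ((le_cent_comm.1 (zpowers_le.2 h3)).trans (cent_le_norm _))).le (cent_le_norm _ (by
      rw [zpowers_eq_closure, centralizer_closure, mem_centralizer_singleton_iff]
      exact mul_inv_eq_iff_eq_mul.1 h))

theorem not_mem_W (h2 : d ≠ 1) (h3 : d ∈ 𝒞 L) : d ∉ WW K := fun h =>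
  h2 (u.jk.W_inf_cent.le ⟨h, H8.centralizer_anti u.le h3⟩)

theorem card_K : ♯K = 12 := by
  have h1 := H1.card_sup_mul_card_inf (u.T_norm u.e)
  rw [le_antisymm u.inf_K (le_inf (u.W_le.trans u.r.1.Q_le) ((WW_le_Op K).trans (H8.Op_le 2 K))),
    sup_comm, u.eq, card_eq_relIndex_mul u.r.le, u.r.idx, u.jk.card] at h1
  have := Nat.card_pos (α := T)
  nlinarith

theorem inf_sup (h1 : WW K ≤ X) (h2 : X ≤ T) : T ⊓ (K ⊔ X) ≤ X := fun x hx => by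
  obtain ⟨k, hk, t, ht, rfl⟩ := (H1.mem_sup_right_norm (h2.trans (u.T_norm u.e))).1 hx.2
  exact mul_mem (h1 (u.inf_K ⟨(mul_mem_cancel_right (h2 ht)).1 hx.1, hk⟩)) ht

theorem s4 (h1 : WW K ≤ X) (h2 : X ≤ T) (h3 : ♯X = 8) (h4 : X ⊓ Op 2 L ≤ WW K) :
    Nonempty (↥(K ⊔ X) ≃* Equiv.Perm (Fin 4)) := by
  have c := H1.card_sup_mul_card_inf (h2.trans (u.T_norm u.e))
  rw [le_antisymm ((inf_le_inf_right _ h2).trans u.inf_K) (le_inf h1 ((WW_le_Op K).trans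
    (H8.Op_le 2 K))), u.jk.card, u.card_K, h3, sup_comm] at c
  have l : K ⊔ X ≤ L := sup_le u.le (h2.trans u.r.le)
  have w := h1.trans (le_sup_right : X ≤ K ⊔ X)
  refine s4_of (by omega) fun N n1 n2 => ⟨fun e => ?_, fun e => ?_⟩
  · have := card_dvd_of_le ((le_cent_iff_comm.2 (H8.commutator_eq_bot_of_inf_eq_bot (w.trans n2)
      ((n1.trans l).trans u.nW) (BG.inf_eq_bot_of_cop (u.r.cop e u.W_le)))).trans u.centW)
    rcases u.r.card with c | ⟨c, -⟩ <;> rw [e, c] at this <;> omega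
  · have h5 := le_cent_two e.le n2
    have h6 := (h5.trans (H8.centralizer_anti w)).trans u.centW
    rw [eq_bot_mono u.jk.W_inf_cent (le_inf ((le_inf ((le_inf (h6.trans u.r.1.Q_le) n1).trans
      (u.inf_sup h1 h2)) h6).trans h4) (h5.trans (H8.centralizer_anti le_sup_left))), card_bot] at e
    omega

theorem mtl {H : Subgroup G} (h1 : K ≤ H) (h4 : H ⊓ Op 2 L ≤ WW K) :
    IsMaximalTwoLocal (L.subgroupOf H) := by
  have w := ((WW_le_Op K).trans (H8.Op_le 2 K)).trans h1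
  have e : L.subgroupOf H = 𝒩 ((WW K).subgroupOf H) := by
    rw [← subgroupOf_normalizer_eq w, u.normW]
  refine ⟨⟨_, (ae_pg (ae_WW K)).comap_of_injective _ H.subtype_injective, fun e =>
    u.jk.W_ne (by rwa [comap_subtype, subgroupOf_eq_bot, disjoint_iff, inf_eq_left.2 w] at e), e⟩, ?_⟩
  rintro _ ⟨R, r1, r2, rfl⟩ h
  have n : L ⊓ H ≤ 𝒩 (R.map H.subtype) := by
    rw [← subgroupOf_map_subtype]; exact (map_mono h).trans (R.le_normalizer_map _)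
  have p := r1.map H.subtype
  have l := map_subtype_le R
  have ne : R.map H.subtype ≠ ⊥ := by rwa [Ne, map_eq_bot_iff_of_injective _ H.subtype_injective]
  have nK := (le_inf u.le h1).trans n
  have a1 : R.map H.subtype ⊓ 𝒞 (WW K) ≤ WW K := (inf_le_inf l u.centW).trans h4
  have a2 : WW K ≤ R.map H.subtype := ((u.jk.irr _ a1 (le_norm_inf_cent nK JK.nW)).resolve_left
    (H1.inf_centralizer_ne_bot_of_isPGroup p (ae_pg (ae_WW K)) (((WW_le_Op K).trans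
      (H8.Op_le 2 K)).trans nK) ne)).ge.trans inf_le_left
  have a3 : WW K = R.map H.subtype := eq_of_norm_le p a2 ((le_inf inf_le_left (le_cent_comm.1
    (u.jk.W_le_cent (p.to_le inf_le_left) inf_le_right
      (H8.le_normalizer_inf nK (le_norm_of_le JK.nW))))).trans a1)
  rw [e, a3, ← comap_subtype, comap_map_eq_self_of_injective H.subtype_injective]

section pair
variable (v : SD T K' L') (hb : ∀ N ≤ T, L ≤ 𝒩 N → L' ≤ 𝒩 N → N = ⊥)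
include v hb

theorem not_Q_le : ¬ Op 2 L ≤ Op 2 L' := fun h => ne_bot_mono u.jk.W_ne u.W_le (hb _ u.r.1.Q_le
  Loc.nQ (eq_of_le_of_card_ge h (by have := u.r.1.card_T; have := v.r.1.card_T; omega) ▸ Loc.nQ))

omit [Finite G] u v in
theorem hb' : ∀ N ≤ T, L' ≤ 𝒩 N → L ≤ 𝒩 N → N = ⊥ := fun N h1 h2 h3 => hb N h1 h3 h2

theorem not_W_le : ¬ WW K ≤ Op 2 L' := fun h => by
  rcases u.r.card with c | ⟨-, d, d1, d2, d3⟩
  · exact u.not_Q_le v hb ((eq_of_le_of_card_ge u.W_le (by rw [c, u.jk.card])).ge.trans h)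
  · exact u.not_Q_le v hb (u.ixW.le_of_mem (inf_le_left.trans h) d1 (u.not_mem_W d2 d3) (v.OZ_le
      (mem_OZ.2 ⟨u.r.1.Q_le d1, H8.centralizer_anti u.r.le d3, ae_sq u.r.ae d1⟩)))

theorem mem_or (hx : x ∈ T) (h : x * x = 1) : x ∈ Op 2 L ∨ x ∈ Op 2 L' := by
  by_contra! e
  obtain ⟨r, r1, r2⟩ := SetLike.not_le_iff_exists.1 (v.not_Q_le u (hb' hb))
  have r3 := v.r.1.Q_le r1
  have h4 := u.r.1.ix2 x hx r r3 e.1 r2
  refine e.2 ((mul_mem_cancel_right r1).1 (v.OZ_le (u.mem_OZ_of h4 r3 r2 ?_)))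
  have h5 := ae_inv u.r.ae h4
  rw [mul_inv_rev, ae_inv v.r.ae r1, inv_eq_of_mul_eq_one_right h] at h5
  conv_lhs => rw [← h5]
  rw [mul_assoc, ← mul_assoc r, ae_sq v.r.ae r1, mul_one, one_mul]

theorem inf_le_OZ : Op 2 L ⊓ Op 2 L' ≤ OZ T := fun x hx => by
  obtain ⟨r, r1, r2⟩ := SetLike.not_le_iff_exists.1 (v.not_Q_le u (hb' hb))
  exact u.mem_OZ_of hx.1 (v.r.1.Q_le r1) r2 (v.r.ae.comm r1 hx.2)

theorem comm_le : ⁅Op 2 L, Op 2 L'⁆ ≤ WW K ⊓ WW K' :=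
  le_inf (comm_le_of_ix2 u.ixW ((v.r.1.Q_le.trans u.r.le).trans Loc.nQ)
    ((v.r.1.Q_le.trans u.r.le).trans u.nW)) (by
      rw [Subgroup.commutator_comm]
      exact comm_le_of_ix2 v.ixW ((u.r.1.Q_le.trans v.r.le).trans Loc.nQ)
        ((u.r.1.Q_le.trans v.r.le).trans v.nW))

theorem comm_ne : ⁅Op 2 L, Op 2 L'⁆ ≠ ⊥ := fun e =>
  u.not_Q_le v hb ((le_cent_iff_comm.2 e).trans v.ch.cen)

theorem card_U : ♯↥(WW K ⊓ WW K') = 2 := u.jk.card_two (ne_bot_mono (u.comm_ne v hb) (u.comm_le v hb))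
  (lt_of_le_of_ne inf_le_left fun e => u.not_W_le v hb (e.ge.trans (inf_le_right.trans v.W_le)))

theorem U_eq : WW K ⊓ WW K' = ⁅Op 2 L, Op 2 L'⁆ :=
  (eq_of_le_of_card_ge (u.comm_le v hb) (u.card_U v hb ▸ two_le_card (u.comm_ne v hb))).symm

omit hb in
theorem T0_le : WW K ⊔ WW K' ≤ T := sup_le (u.W_le.trans u.r.1.Q_le) (v.W_le.trans v.r.1.Q_le)

theorem card_T0 : ♯↥(WW K ⊔ WW K') = 8 := by
  have := H1.card_sup_mul_card_inf ((u.W_le.trans (u.r.1.Q_le.trans v.r.le)).trans v.nW)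
  rw [u.card_U v hb, u.jk.card, v.jk.card] at this
  omega

theorem ixT0 : Ix2 (WW K ⊔ WW K') T := ix2_of_card (u.T0_le v) (by
  have := u.c8; rw [u.card_T0 v hb, u.r.1.card_T]; omega)

theorem T0_inf : (WW K ⊔ WW K') ⊓ Op 2 L ≤ WW K := by
  rcases u.ixW.eq_or (le_inf le_sup_left u.W_le) inf_le_right with e | e
  · exact e.le
  have := card_le_of_le (u.r.1.T_le (v.W_le.trans v.r.1.Q_le) (v.not_W_le u (hb' hb))
    (e.ge.trans inf_le_left) le_sup_right)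
  rw [u.card_T0 v hb, u.r.1.card_T] at this
  exact inf_le_right.trans (eq_of_le_of_card_ge u.W_le (by rw [u.jk.card]; omega)).ge

theorem mem_W_or (hx : x ∈ WW K ⊔ WW K') (h : x * x = 1) : x ∈ WW K ∨ x ∈ WW K' :=
  (u.mem_or v hb (u.T0_le v hx) h).imp (fun e => u.T0_inf v hb ⟨hx, e⟩)
    fun e => v.T0_inf u (hb' hb) ⟨sup_comm (WW K) _ ▸ hx, e⟩

theorem X_eq {H : Subgroup G} (h1 : K ≤ H) (h2 : T ⊓ H = WW K ⊔ WW K') :
    L ⊓ H = K ⊔ (WW K ⊔ WW K') :=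
  le_antisymm (fun x hx => by
    obtain ⟨k, hk, t, ht, rfl⟩ := (H1.mem_sup_right_norm (u.T_norm u.e)).1 (u.eq.ge hx.1)
    exact mul_mem_sup hk (h2.le ⟨ht, (mul_mem_cancel_left (h1 hk)).1 hx.2⟩))
    (sup_le (le_inf u.le h1) (h2.ge.trans (inf_le_inf_right _ u.r.le)))

variable (d1 : d ∈ Op 2 L) (d2 : d ≠ 1) (d3 : d ∈ 𝒞 L)
include d1 d2 d3

theorem d_not : d ∉ WW K ⊔ WW K' := fun h => u.not_mem_W d2 d3 (u.T0_inf v hb ⟨h, d1⟩)

theorem not_conj : g * d * g⁻¹ ∉ WW K ⊔ WW K' := fun h => by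
  obtain ⟨z, z1, z2⟩ := exists_ne_one (u.comm_ne v hb)
  have z3 := u.comm_le v hb z1
  have h1 : g * d * g⁻¹ ≠ 1 := by simpa using d2
  obtain ⟨x, hx⟩ : ∃ x, x * d * x⁻¹ = z := isConj_iff.1 ((isConj_iff.2 ⟨g, rfl⟩).trans (by
    rcases u.mem_W_or v hb h (by rw [conj_mul, ae_sq u.r.ae d1, mul_one, mul_inv_cancel]) with e | e
    exacts [u.isConj e z3.1 h1 z2, v.isConj e z3.2 h1 z2]))
  have h2 : x⁻¹ ⋆ T ≤ L := by
    rintro _ ⟨t, ht, rfl⟩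
    refine u.mem_of_comm d1 d2 d3 ?_
    have := (mem_OZ.1 (u.inf_le_OZ v hb ⟨u.W_le z3.1, v.W_le z3.2⟩)).2.1 t ht
    rw [← hx] at this
    calc x⁻¹ * t * x⁻¹⁻¹ * d * (x⁻¹ * t * x⁻¹⁻¹)⁻¹ = x⁻¹ * (t * (x * d * x⁻¹)) * t⁻¹ * x := by group
      _ = d := by rw [this]; group
  have h3 : d ∈ ⁅L, L⁆ := by
    have := conj_mem_cj x⁻¹ (Subgroup.commutator_mono u.r.1.Q_le v.r.1.Q_le z1)
    rw [cj_commutator, ← hx] at this
    simpa [mul_assoc] using Subgroup.commutator_mono h2 h2 this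
  have l : K ⊔ (WW K ⊔ WW K') ≤ L := sup_le u.le ((u.T0_le v).trans u.r.le)
  have i : Ix2 (K ⊔ (WW K ⊔ WW K')) L :=
    (ix2_sup (cent_le_norm _ (H8.centralizer_anti l d3)) (ae_sq u.r.ae d1 ▸ one_mem _)).mono
      (u.eq.ge.trans (sup_le (le_sup_left.trans le_sup_left) ((u.ixT0 v hb).le_of_mem
        (inf_le_left.trans (le_sup_right.trans le_sup_left)) (u.r.1.Q_le d1) (u.d_not v hb d1 d2 d3)
        (mem_sup_right (mem_zpowers d)))))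
  exact u.d_not v hb d1 d2 d3 (u.inf_sup le_sup_left (u.T0_le v)
    ⟨u.r.1.Q_le d1, comm_le_of_ix2 i le_normalizer (i.le_normalizer l) h3⟩)

theorem ixU : Ix2 (WW K ⊓ WW K') (OZ T) := by
  have h1 := (le_inf u.OZ_le v.OZ_le)
  refine ix2_of_card ((inf_le_inf u.W_le v.W_le).trans (u.inf_le_OZ v hb)) ?_
  have h2 := card_le_of_le h1
  have h3 := ((v.r.1.ix2.mono u.r.1.Q_le).inf le_rfl).card inf_le_right
    fun e => u.not_Q_le v hb (e.trans inf_le_left)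
  have := u.c8
  rw [inf_comm] at h3
  rw [u.card_U v hb]; omega

theorem d_mem : d ∈ OZ T := mem_OZ.2 ⟨u.r.1.Q_le d1, H8.centralizer_anti u.r.le d3, ae_sq u.r.ae d1⟩

variable (e1 : d' ∈ Op 2 L') (e2 : d' ≠ 1) (e3 : d' ∈ 𝒞 L')
include e1 e2 e3

theorem d_ne : d ≠ d' := fun e => d2 (zpowers_eq_bot.1 (hb _ (zpowers_le.2 (u.r.1.Q_le d1))
  ((le_cent_comm.1 (zpowers_le.2 d3)).trans (cent_le_norm _))
  ((le_cent_comm.1 (zpowers_le.2 (e ▸ e3))).trans (cent_le_norm _))))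

theorem dd_mem : d⁻¹ * d' ∈ WW K ⊓ WW K' :=
  (u.ixU v hb d1 d2 d3).inv_mul (u.d_mem v hb d1 d2 d3) (v.d_mem u (hb' hb) e1 e2 e3)
    (fun h => u.not_mem_W d2 d3 h.1) fun h => v.not_mem_W e2 e3 h.2

theorem swap_d (hs : s ∈ 𝒩 T) (h : s ∉ L) : s * d * s⁻¹ = d' := by
  have m := u.d_mem v hb d1 d2 d3
  have := ix2_of_card bot_le (by rw [u.card_U v hb, card_bot]) _ ((u.ixU v hb d1 d2 d3).inv_mul
    ((norm_le_OZ T hs d).1 m) m (fun e => u.not_conj v hb d1 d2 d3 (mem_sup_left e.1))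
    fun e => u.not_mem_W d2 d3 e.1) _ (u.dd_mem v hb d1 d2 d3 e1 e2 e3)
    (fun e => h (u.mem_of_comm d1 d2 d3 (inv_mul_eq_one.1 e)))
    fun e => u.d_ne v hb d1 d2 d3 e1 e2 e3 (inv_mul_eq_one.1 e)
  rwa [mem_bot, mul_assoc, mul_inv_cancel_left, inv_mul_eq_one] at this

theorem swap_L (hs : s ∈ 𝒩 T) (h : s ∉ L) : s ⋆ L = L' := by
  have e := u.swap_d v hb d1 d2 d3 e1 e2 e3 hs h
  refine eq_of_le_of_card_ge ?_ (by
    rw [card_cj, card_eq_relIndex_mul u.r.le, card_eq_relIndex_mul v.r.le, u.r.idx, v.r.idx])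
  rintro _ ⟨g, hg, rfl⟩
  refine v.mem_of_comm e1 e2 e3 ?_
  rw [← e]
  calc s * g * s⁻¹ * (s * d * s⁻¹) * (s * g * s⁻¹)⁻¹ = s * (g * d) * g⁻¹ * s⁻¹ := by group
    _ = _ := by rw [d3 g hg]; group

theorem swap_W (hs : s ∈ 𝒩 T) (h : s ∉ L) : s ⋆ WW K = WW K' := by
  rw [cj_WW, ← u.res, cj_resOf, u.swap_L v hb d1 d2 d3 e1 e2 e3 hs h, v.res]

theorem norm_T0 (hs : s ∈ 𝒩 T) : s ∈ 𝒩 (WW K ⊔ WW K') ∧ ∀ c ∈ WW K ⊓ WW K', s * c * s⁻¹ = c := by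
  have n : s ∈ 𝒩 (WW K ⊔ WW K') ∧ s ∈ 𝒩 (WW K ⊓ WW K') := by
    by_cases h : s ∈ L
    · have h1 := u.r.1.mem_of_norm h hs
      exact ⟨(u.ixT0 v hb).le_normalizer (u.T0_le v) h1,
        H8.le_normalizer_inf (u.r.le.trans u.nW) (v.r.le.trans v.nW) h1⟩
    have h' : s ∉ L' := fun e => h (u.r.le (v.r.1.mem_of_norm e hs))
    have w1 := u.swap_W v hb d1 d2 d3 e1 e2 e3 hs h
    have w2 := v.swap_W u (hb' hb) e1 e2 e3 d1 d2 d3 hs h'
    exact ⟨mem_normalizer_iff_cj.2 (by rw [cj_sup, w1, w2, sup_comm]),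
      mem_normalizer_iff_cj.2 (by rw [cj_inf, w1, w2, inf_comm])⟩
  exact ⟨n.1, fun c hc => mul_inv_eq_iff_eq_mul.2
    (le_cent_two (u.card_U v hb).le (zpowers_le.2 n.2) hc s (mem_zpowers s))⟩

theorem ixN : Ix2 T (𝒩 T) := fun s hs t ht h1 h2 => by
  refine u.r.1.mem_of_norm (u.mem_of_comm d1 d2 d3 ?_) (mul_mem hs ht)
  rw [mul_inv_rev, mul_assoc s, mul_assoc s, ← mul_assoc (t * d), u.swap_d v hb d1 d2 d3 e1 e2 e3 ht
    fun e => h2 (u.r.1.mem_of_norm e ht), ← mul_assoc,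
    v.swap_d u (hb' hb) e1 e2 e3 d1 d2 d3 hs fun e => h1 (v.r.1.mem_of_norm e hs)]

theorem ae_le (hA : AE 2 A) (h1 : A ≤ 𝒩 T) (h2 : 4 < ♯A) : A ≤ T := by
  by_contra h
  obtain ⟨a, ha, h3⟩ := SetLike.not_le_iff_exists.1 h
  have n := h1 ha
  have n1 : a ∉ L := fun e => h3 (u.r.1.mem_of_norm e n)
  have n2 : a ∉ L' := fun e => h3 (v.r.1.mem_of_norm e n)
  have c := ((u.ixN v hb d1 d2 d3 e1 e2 e3).mono h1).card_le
  have l : T ⊓ A ≤ WW K ⊓ WW K' := fun x hx => by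
    have f : a * x * a⁻¹ = x := mul_inv_eq_iff_eq_mul.2 (hA.comm ha hx.2)
    have m : x ∈ Op 2 L ⊓ Op 2 L' := by
      rcases u.mem_or v hb hx.1 (ae_sq hA hx.2) with e | e
      · refine ⟨e, ?_⟩
        rw [← u.swap_L v hb d1 d2 d3 e1 e2 e3 n n1, ← cj_Op, ← f]; exact conj_mem_cj a e
      · refine ⟨?_, e⟩
        rw [← v.swap_L u (hb' hb) e1 e2 e3 d1 d2 d3 n n2, ← cj_Op, ← f]; exact conj_mem_cj a e
    by_contra e
    have := (u.norm_T0 v hb d1 d2 d3 e1 e2 e3 n).2 _ ((u.ixU v hb d1 d2 d3).inv_mul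
      (u.d_mem v hb d1 d2 d3) (u.inf_le_OZ v hb m) (fun h => u.not_mem_W d2 d3 h.1) e)
    rw [← conj_mul, ← conj_inv, f, u.swap_d v hb d1 d2 d3 e1 e2 e3 n n1, mul_left_inj, inv_inj] at this
    exact u.d_ne v hb d1 d2 d3 e1 e2 e3 this.symm
  have := u.card_U v hb ▸ card_le_of_le l
  omega

theorem le_norm (hS : IsPGroup 2 S) (hT : T ≤ S) : S ≤ 𝒩 T := by
  have k : ∀ {K L : Subgroup G} {d : G}, SD T K L → d ∈ Op 2 L → d ≠ 1 → d ∈ 𝒞 L →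
      ∀ g ∈ 𝒩 (S ⊓ 𝒩 T), g ⋆ Op 2 L ≤ T := fun w d1' d2' d3' g hg =>
    u.ae_le v hb d1 d2 d3 e1 e2 e3 (w.r.ae.map _) ((cj_le_of_norm (w.r.1.Q_le.trans
      (le_inf hT le_normalizer)) hg).trans inf_le_right) (by
        rw [card_cj, w.ixW.card w.W_le fun e => w.not_mem_W d2' d3' (e d1'), w.jk.card]; omega)
  exact (eq_of_norm_le hS inf_le_left fun g hg => ⟨hg.1, mem_normalizer_of_cj_le ((cj_mono g
    (u.r.1.T_le v.r.1.Q_le (v.not_Q_le u (hb' hb)) le_sup_left le_sup_right)).trans (by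
      rw [cj_sup]; exact sup_le (k u d1 d2 d3 g hg.2) (k v e1 e2 e3 g hg.2)))⟩).ge.trans inf_le_right

theorem mul_mem_T0 (ha : a ∈ 𝒩 T) (a1 : a ∉ T) (a2 : a * a = 1) (hy : y ∈ 𝒩 T) (y1 : y ∉ T)
    (y2 : y * y = 1) : a * y ∈ WW K ⊔ WW K' := by
  by_contra h
  have n1 : a ∉ L := fun e => a1 (u.r.1.mem_of_norm e ha)
  have n2 : a ∉ L' := fun e => a1 (v.r.1.mem_of_norm e ha)
  have w1 := u.swap_W v hb d1 d2 d3 e1 e2 e3 ha n1
  have w2 := v.swap_W u (hb' hb) e1 e2 e3 d1 d2 d3 ha n2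
  have cU := (u.norm_T0 v hb d1 d2 d3 e1 e2 e3 ha).2
  have m := u.ixN v hb d1 d2 d3 e1 e2 e3 a ha y hy a1 y1
  have m1 := (u.ixT0 v hb).inv_mul (u.r.1.Q_le d1) m (u.d_not v hb d1 d2 d3) h
  have ai := inv_eq_of_mul_eq_one_right a2
  have key : a * (d⁻¹ * (a * y)) * a⁻¹ ≠ (d⁻¹ * (a * y))⁻¹ := fun e => by
    rw [← conj_mul, ← conj_inv, u.swap_d v hb d1 d2 d3 e1 e2 e3 ha n1, mul_inv_rev, inv_inv,
      d3 _ (u.r.le (inv_mem m)), ← mul_assoc a a, a2, one_mul, mul_inv_rev,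
      inv_eq_of_mul_eq_one_right y2, mul_left_inj, ae_inv v.r.ae e1] at e
    exact u.d_ne v hb d1 d2 d3 e1 e2 e3 e.symm
  have key2 : a * (d⁻¹ * (a * y)) * a⁻¹ * (d⁻¹ * (a * y)) ∈ WW K ⊓ WW K' := by
    have := inv_mem (u.dd_mem v hb d1 d2 d3 e1 e2 e3)
    rw [← conj_mul, ← conj_inv, u.swap_d v hb d1 d2 d3 e1 e2 e3 ha n1,
      ← (inv_mem d3 : d⁻¹ ∈ 𝒞 L) _ (u.r.le m), ai]
    rwa [show d'⁻¹ * (a * (a * y) * a) * (a * y * d⁻¹) = d'⁻¹ * ((a * a) * y * (a * a) * y) * d⁻¹ by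
      group, a2, one_mul, mul_one, y2, mul_one, ae_inv u.r.ae d1, ← inv_inv d, ← mul_inv_rev]
  generalize d⁻¹ * (a * y) = x at m1 key key2
  by_cases h1 : x ∈ WW K
  · have h2 : a * x * a⁻¹ ∈ WW K ⊓ WW K' :=
      ⟨(mul_mem_cancel_right h1).1 key2.1, w1 ▸ conj_mem_cj a h1⟩
    have h3 := cU _ h2
    exact key (by rw [ae_inv (ae_WW K) h1]; simpa [ai, ← mul_assoc, a2, mul_assoc x] using h3.symm)
  by_cases h2 : x ∈ WW K'
  · have h2' : a * x * a⁻¹ ∈ WW K ⊓ WW K' :=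
      ⟨w2 ▸ conj_mem_cj a h2, (mul_mem_cancel_right h2).1 key2.2⟩
    have h3 := cU _ h2'
    exact key (by rw [ae_inv (ae_WW K') h2]; simpa [ai, ← mul_assoc, a2, mul_assoc x] using h3.symm)
  obtain ⟨w, hw, h3⟩ := SetLike.not_le_iff_exists.1 fun e : WW K ≤ WW K' =>
    u.not_W_le v hb (e.trans v.W_le)
  have h4 := (ix2_of_card le_sup_right (by rw [u.card_T0 v hb, v.jk.card])).inv_mul
    (mem_sup_left hw) m1 h3 h2
  obtain ⟨w', rfl⟩ : ∃ w', x = w * w' := ⟨w⁻¹ * x, by group⟩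
  rw [inv_mul_cancel_left] at h4
  have h5 := (ix2_of_card inf_le_right (by rw [u.card_U v hb, v.jk.card])).mul_inv
    (w1 ▸ conj_mem_cj a hw) h4 (fun e => h3 (w1 ▸ by
      simpa [ai, ← mul_assoc, a2, mul_assoc w] using conj_mem_cj a e.1))
    fun e => h1 (mul_mem hw e.1)
  have h6 := cU _ h5
  have h7 := (ae_WW K').comm h5.2 h4
  have h8 := ae_sq (ae_WW K) h5.1
  generalize hc : a * w * a⁻¹ * w'⁻¹ = c at h6 h7 h8
  have h9 : a * w * a⁻¹ = c * w' := by rw [← hc]; group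
  have h10 : a * w' * a⁻¹ = c * w := by
    rw [← inv_eq_of_mul_eq_one_right h8, eq_inv_mul_iff_mul_eq, ← h6, conj_mul, ← h9]
    simp [ai, ← mul_assoc, a2, mul_assoc w]
  refine key ?_
  rw [← conj_mul, h9, h10, mul_inv_rev, ae_inv (ae_WW K) hw, ae_inv (ae_WW K') h4, h7, mul_assoc,
    ← mul_assoc c, h8, one_mul]

theorem not_mem_res : d ∉ resOf 2 (⊤ : Subgroup G) := by
  obtain ⟨S, hS, hT⟩ := exists_sylIn_ge u.pg le_top
  have n := u.le_norm v hb d1 d2 d3 e1 e2 e3 hS.pgrp hT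
  have i := (u.ixN v hb d1 d2 d3 e1 e2 e3).mono n
  have n0 : S ≤ 𝒩 (WW K ⊔ WW K') := fun s hs => (u.norm_T0 v hb d1 d2 d3 e1 e2 e3 (n hs)).1
  have c := comm_le_of_ix2' i n0 (comm_le_of_ix2 (u.ixT0 v hb) n n0)
  have dT := u.r.1.Q_le d1
  have dd := ae_sq u.r.ae d1
  have sq : ∀ g, g * d * g⁻¹ * (g * d * g⁻¹) = 1 := fun g => by
    rw [conj_mul, dd, mul_one, mul_inv_cancel]
  obtain ⟨D, h1, h2, h3, h4⟩ : ∃ D, WW K ⊔ WW K' ≤ D ∧ D ≤ S ∧ d ∉ D ∧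
      ∀ g, g * d * g⁻¹ ∈ S → g * d * g⁻¹ * d⁻¹ ∈ D := by
    have k : ∀ g, g * d * g⁻¹ ∈ T → g * d * g⁻¹ * d⁻¹ ∈ WW K ⊔ WW K' := fun g h =>
      (u.ixT0 v hb).mul_inv h dT (u.not_conj v hb d1 d2 d3) (u.d_not v hb d1 d2 d3)
    by_cases h : ∃ a ∈ S, a ∉ T ∧ a * a = 1
    · obtain ⟨a, a1, a2, a3⟩ := h
      have m := mul_mem a1 (hT dT)
      refine ⟨WW K ⊔ WW K' ⊔ zpowers (a * d), le_sup_left, sup_le ((u.T0_le v).trans hT)
        (zpowers_le.2 m), fun e => ?_, fun g hg => ?_⟩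
      · have := (inv_mem (u.dd_mem v hb d1 d2 d3 e1 e2 e3)).1
        rw [mul_inv_rev, inv_inv, ae_inv v.r.ae e1, ← u.swap_d v hb d1 d2 d3 e1 e2 e3 (n a1)
          (fun e => a2 (u.r.1.mem_of_norm e (n a1))), inv_eq_of_mul_eq_one_right a3,
          mul_assoc] at this
        rcases (mem_sup_two (n0 m) (mem_sup_left this)).1 e with e | e
        · exact u.d_not v hb d1 d2 d3 e
        · have := u.T0_le v e
          rw [mul_mem_cancel_right dT, inv_mem_iff, mul_mem_cancel_right dT] at this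
          exact a2 this
      · by_cases e : g * d * g⁻¹ ∈ T
        · exact mem_sup_left (k g e)
        have := u.mul_mem_T0 v hb d1 d2 d3 e1 e2 e3 (n a1) a2 a3 (n hg) e (sq g)
        have h5 := d3 _ (u.r.le (u.T0_le v this))
        have := mul_mem (mem_sup_right (S := WW K ⊔ WW K') (mem_zpowers (a * d))) (mem_sup_left this)
        rw [ae_inv u.r.ae d1]
        rwa [mul_assoc a, ← h5, ← mul_assoc, ← mul_assoc a, a3, one_mul] at this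
    · push Not at h
      exact ⟨_, le_rfl, (u.T0_le v).trans hT, u.d_not v hb d1 d2 d3, fun g hg =>
        k g (by by_contra e; exact h _ hg e (sq g))⟩
  obtain ⟨M, m1, -, m2, m3⟩ := not_mem_of_transfer (p := 2) (j := 1) (c.trans h1)
    (relIndex_top_right S ▸ (sylIn_iff.1 hS).2.2) (hT dT) h3 (by
      rw [pow_one, _root_.sq, dd]; exact one_mem _) fun k g hg => by
      rcases k.even_or_odd' with ⟨j, rfl | rfl⟩
      · simp [pow_mul, _root_.sq, dd]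
      · simp only [pow_succ, pow_mul, pow_zero, one_mul, dd, one_pow] at hg ⊢
        exact h4 g hg
  obtain ⟨k, hk⟩ := IsPGroup.iff_card.1 hS.pgrp
  obtain ⟨j, -, hj⟩ := (Nat.dvd_prime_pow Nat.prime_two).1
    (m2.trans (hk ▸ relIndex_dvd_card D S))
  exact fun h => m3 (pResidual_le_of_index hj (resOf_top (G := G) 2 ▸ h))

omit d1 d2 d3 e1 e2 e3 in
theorem inf_res : T ⊓ resOf 2 (⊤ : Subgroup G) = WW K ⊔ WW K' := by
  have k : ∀ {K L : Subgroup G}, SD T K L → WW K ≤ resOf 2 (⊤ : Subgroup G) := fun w =>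
    ((WW_le_Op _).trans (H8.Op_le 2 _)).trans (w.jk.res.ge.trans (resOf_mono le_top))
  refine ((u.ixT0 v hb).eq_or (le_inf (u.T0_le v) (sup_le (k u) (k v))) inf_le_left).elim id
    fun e => ?_
  have c1 := u.r.1.card_T
  have c2 := v.r.1.card_T
  rcases u.r.card with c | ⟨c, d, d1, d2, d3⟩
  · exact e.trans (eq_of_le_of_card_ge (u.T0_le v) (by rw [u.card_T0 v hb]; omega)).symm
  rcases v.r.card with c' | ⟨c', d', e1, e2, e3⟩
  · omega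
  exact (u.not_mem_res v hb d1 d2 d3 e1 e2 e3 (e.ge (u.r.1.Q_le d1)).2).elim

omit d1 d2 d3 e1 e2 e3 in
theorem final : IsMaximalTwoLocal (L.subgroupOf (resOf 2 ⊤)) ∧
    Nonempty (L.subgroupOf (resOf 2 ⊤) ≃* Equiv.Perm (Fin 4)) := by
  have e := u.inf_res v hb
  have k := u.jk.res.ge.trans (resOf_mono (le_top : K ≤ ⊤))
  obtain ⟨f⟩ := u.s4 le_sup_left (u.T0_le v) (u.card_T0 v hb) (u.T0_inf v hb)
  rw [← u.X_eq v hb k e] at f
  exact ⟨u.mtl k ((le_inf ((le_inf (inf_le_right.trans u.r.1.Q_le) inf_le_left).trans e.le)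
    inf_le_right).trans (u.T0_inf v hb)), ⟨((MulEquiv.subgroupCongr
      (inf_subgroupOf_right L _).symm).trans (subgroupOfEquivOfLe inf_le_right)).trans f⟩⟩

end pair

end SD

theorem ZN.s4_type (z : ZN G) (h : Even ♯G) (hO : pCore 2 G = ⊥) :
    (∃ M : Subgroup G, IsStronglyEmbedded M) ∨ ∃ T K L K' L' : Subgroup G, SD T K L ∧ SD T K' L' ∧
      ∀ N ≤ T, L ≤ 𝒩 N → L' ≤ 𝒩 N → N = ⊥ := by
  obtain ⟨S, hS, -⟩ := exists_sylIn_ge (p := 2) (IsPGroup.of_bot (G := G)) le_top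
  have h1 : S ≠ ⊥ := fun e => (sylIn_iff.1 hS).2.2 (by
    rw [e, relIndex_bot_left, card_top]; exact even_iff_two_dvd.1 h)
  have hm := hm_mk z hS le_rfl
  refine or_iff_not_imp_left.2 fun h2 => ?_
  obtain ⟨T, t⟩ := not_forall_not.1 fun e => h2 ⟨_, (hm.se_iff (tl_norm (JJ_pg hS.pgrp)
    (H9.JJ_ne_bot (.inr rfl) hS.pgrp h1)) hO).2 e⟩
  obtain ⟨T, t⟩ := exists_maxST t
  obtain ⟨K, k, h1, h2⟩ := (ms_of t).exists_out hm
  obtain ⟨L, u⟩ := (ms_of t).exists_ul hm k h1 h2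
  obtain ⟨K', L', v, h3⟩ := u.other hO
  have e := u.OZ_eq hO
  obtain ⟨r, r'⟩ := amalgam (u.loc e) (v.loc e) ((u.idx e).trans (v.idx e).symm) (u.bot h3)
  have e1 := u.eq_P e r
  have e2 := v.eq_P e r'
  exact ⟨T, K, L, K', L', ⟨u, e, e1.symm, e1 ▸ r⟩, ⟨v, e, e2.symm, e2 ▸ r'⟩, e1 ▸ e2 ▸ u.bot h3⟩

end Cfsg.Agent.H2.JC
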