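import Mathlib
import Cfsg.Agent.H2.LX2
import Cfsg.Agent.H2.BG1

/-! The structure of groups with a large extraspecial subgroup. -/

set_option autoImplicit false

namespace Cfsg.Agent.H2

open Subgroup Module
open scoped commutatorElement

universe u

variable {G : Type u} [Group G]

local notation "𝒞" x:max => Subgroup.centralizer ({x} : Set G)
local notation "𝒩" x:max => Subgroup.normalizer (x : Set G)

theorem SylIn.inf_of_sn [Finite G] {p : ℕ} [Fact p.Prime] {T X N : Subgroup G} (hT : SylIn p T X)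
    (h : H8.SN X N) : SylIn p (T ⊓ N) N := by
  induction h with
  | refl => rwa [inf_eq_left.2 hT.le]
  | step A B h1 _ h3 ih =>
    have := ih.inf_normal' h3 h1
    rwa [inf_assoc, inf_eq_right.2 h1] at this

theorem qs_not_cyclic_syl [Finite G] {L R : Subgroup G} (hL : IsQuasisimple L) (hR : SylIn 2 R L)
    (h1 : R ≠ ⊥) : ¬ IsCyclic R := fun hc => by
  have h := cyclic_pdiv_normal_complement hR hc fun r hr _ => hr.two_le
  have h2 := hR.resOf_sup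
  have h3 : resOf 2 L = L := by
    refine le_antisymm (resOf_le _ _) ?_
    conv_lhs => rw [← H8.qs_perfect hL]
    obtain ⟨x, hx⟩ := (isCyclic_iff_exists_zpowers_eq_top.1 hc)
    have hx' : zpowers (x : G) = R := by
      have := congrArg (Subgroup.map R.subtype) hx
      rwa [MonoidHom.map_zpowers, ← MonoidHom.range_eq_map, range_subtype] at this
    exact der_le_of_sup_zpowers (le_normalizer_resOf 2 L) (x := x) (by rw [hx', h2])
  rw [pNil_iff_card, h3] at h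
  exact h1 (hR.eq_bot_iff.2 (H8.coprime_iff_not_dvd.1 h))

theorem eq_of_mul_eq {L : Subgroup G} (hL : L ⊓ centralizer (L : Set G) = ⊥) {a b c d : G}
    (ha : a ∈ L) (hb : b ∈ L) (hc : c ∈ centralizer (L : Set G))
    (hd : d ∈ centralizer (L : Set G)) (e : a * c = b * d) : a = b := by
  have h1 : b⁻¹ * a = d * c⁻¹ := by
    rw [inv_mul_eq_iff_eq_mul, ← mul_assoc, ← e, mul_inv_cancel_right]
  have : b⁻¹ * a ∈ L ⊓ centralizer (L : Set G) :=
    mem_inf.2 ⟨mul_mem (inv_mem hb) ha, h1 ▸ mul_mem hd (inv_mem hc)⟩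
  rw [hL, mem_bot, inv_mul_eq_one] at this
  exact this.symm

namespace LX

variable [Finite G] {Q : Subgroup G} {z : G} (h : LX Q z)
  (hl : ∀ K : Subgroup G, Odd (Nat.card K) → Q ≤ Subgroup.normalizer (K : Set G) → K = ⊥)
include h hl

theorem mem_of_sn {N : Subgroup G} (hN : H8.SN ⊤ N) (hn : Q ≤ 𝒩 N) (h1 : N ≠ ⊥) : z ∈ N := by
  obtain ⟨T, a, -, c⟩ := h.exists_syl
  have hS := c.inf_of_sn hN
  refine (h.mem_of_norm hS.pgrp (H8.le_normalizer_inf (a.trans le_normalizer) hn) fun e => ?_).2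
  exact h1 (hl N (Nat.odd_iff.2 (Nat.two_dvd_ne_zero.1 (hS.eq_bot_iff.1 e))) hn)

omit h in
theorem Opp_eq : H8.Opp 2 (⊤ : Subgroup G) = ⊥ :=
  hl _ (Nat.coprime_two_right.1 (H8.Opp_coprime 2 ⊤)) (H8.le_normalizer_Opp_of 2
    (H8.le_normalizer_top _))

theorem of_Op_ne (hO : H8.Op 2 (⊤ : Subgroup G) ≠ ⊥) :
    IsMulCommutative (normalClosure ({z} : Set G)) ∧ H8.Fs (⊤ : Subgroup G) = H8.Op 2 ⊤ := by
  have hn := H8.le_normalizer_Op 2 (⊤ : Subgroup G)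
  have hz := h.mem_of_norm (H8.Op_isPGroup 2 ⊤) (le_top.trans hn) hO
  obtain ⟨T, a, b, c⟩ := h.exists_syl
  have h1 : H8.Op 2 ⊤ ≤ 𝒞 z := (c.normal_le (H8.Op_isPGroup 2 ⊤) le_top (le_top.trans hn)).trans b
  constructor
  · haveI := H8.normal_of_top_le (H8.le_normalizer_inf hn (H8.le_normalizer_centralizer hn))
    have h2 : normalClosure ({z} : Set G) ≤ H8.Op 2 ⊤ ⊓ centralizer (H8.Op 2 (⊤ : Subgroup G)) :=
      normalClosure_le_normal (Set.singleton_subset_iff.2 ⟨hz, fun x hx => mem_cent1.1 (h1 hx)⟩)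
    exact ⟨⟨fun a b => Subtype.ext ((h2 b.2).2 a (h2 a.2).1)⟩⟩
  · refine H8.Fs_eq_Op_iff'.2 ⟨?_, Opp_eq hl⟩
    have h2 : H8.Lay ⊤ ≤ 𝒞 z := fun x hx => mem_cent1.2
      (H8.commute_of_commutator_eq_bot (H8.commutator_Op_Lay 2 ⊤) hz hx).symm
    have h3 := H8.commutator_Lay_of_solvable le_top (h2.trans h.norm)
      (H8.solvable_of_isPGroup h.isPGroup)
    rw [Subgroup.commutator_comm, commutator_eq_bot_iff_le_centralizer, h.centralizer_eq] at h3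
    exact H8.perfect_eq_bot_of_solvable (H8.Lay_perfect ⊤) (H8.solvable_of_isPGroup
      ((isPGroup_zpowers_ord2 h.ord).to_le h3))

theorem of_Op_eq (hO : H8.Op 2 (⊤ : Subgroup G) = ⊥) :
    normalClosure ({z} : Set G) = H8.Fs ⊤ ∧
    ((IsSimpleGroup (normalClosure ({z} : Set G)) ∧
      ¬ IsMulCommutative (normalClosure ({z} : Set G))) ∨
    ∃ (L : Subgroup G) (u : G), u ∈ Q ∧ IsSimpleGroup L ∧ ¬ IsMulCommutative L ∧
      L ⊓ H8.cj L u = ⊥ ∧ (∀ x ∈ L, ∀ y ∈ H8.cj L u, x * y = y * x) ∧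
      L ⊔ H8.cj L u = normalClosure ({z} : Set G) ∧ ∃ z₁ ∈ L, z = z₁ * (u * z₁ * u⁻¹) ∧
      SylIn 2 (L ⊓ 𝒞 z₁) L ∧ Phi (L ⊓ 𝒞 z₁) ≤ zpowers z₁ ∧ Q ≠ H8.Op 2 (𝒞 z)) := by
  classical
  have hF : H8.Fit (⊤ : Subgroup G) = ⊥ := (H8.Fit_eq_Op_of_Opp_eq_bot (Opp_eq hl)).trans hO
  have hE : H8.Fs (⊤ : Subgroup G) = H8.Lay ⊤ := by rw [H8.Fs_eq, hF, sup_bot_eq]
  have hZ : ∀ K, H8.SN ⊤ K → K ⊓ centralizer (K : Set G) = ⊥ := fun K hK =>
    eq_bot_iff.2 (hF ▸ H8.center_le_Fit_of_sn hK)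
  have hE1 : H8.Lay (⊤ : Subgroup G) ≠ ⊥ := fun e => h.ne (by
    rw [← hE, H8.Fs_eq_bot_iff] at e
    rw [← mem_bot, ← e]; trivial)
  obtain ⟨L, hL⟩ : ∃ L, H8.Comp (⊤ : Subgroup G) L := by
    by_contra hn
    exact hE1 (H8.Lay_eq_bot_iff.2 fun K hK => hn ⟨K, hK⟩)
  have hcj : ∀ {K} (g : G), H8.Comp ⊤ K → H8.Comp ⊤ (H8.cj K g) := fun g hK =>
    hK.cj_of_mem (H8.le_normalizer_top ⊤ (mem_top g))
  have hzE : z ∈ H8.Lay ⊤ := h.mem_of_sn hl (H8.sn_Lay ⊤)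
    (H8.le_normalizer_Lay_of (H8.le_normalizer_top _)) hE1
  have htr : ∀ K, H8.Comp ⊤ K → ∃ u ∈ Q, K = H8.cj L u := fun K hK => by
    by_contra hn
    let P : Subgroup G → Prop := fun K => ∃ u ∈ Q, K = H8.cj L u
    have h1 : z ∈ H8.LayP ⊤ P := h.mem_of_sn hl H8.sn_LayP
      (H8.le_normalizer_LayP (H8.le_normalizer_top _) (by
        rintro a ha _ _ ⟨u, hu, rfl⟩
        exact ⟨a * u, mul_mem ha hu, H8.cj_cj _ _ _⟩))
      fun e => hL.ne_bot (eq_bot_iff.2 (e ▸ H8.le_LayP hL ⟨1, one_mem _, (H8.cj_one _).symm⟩))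
    have h2 : z ∈ H8.LayP ⊤ fun K => ¬ P K := h.mem_of_sn hl H8.sn_LayP
      (H8.le_normalizer_LayP (H8.le_normalizer_top _) (by
        rintro a ha K _ hK ⟨u, hu, e⟩
        exact hK ⟨a⁻¹ * u, mul_mem (inv_mem ha) hu, by rw [← H8.cj_cj, ← e, H8.cj_inv_cj]⟩))
      fun e => hK.ne_bot (eq_bot_iff.2 (e ▸ H8.le_LayP (P := fun K => ¬ P K) hK hn))
    refine h.ne ?_
    rw [← mem_bot, ← hZ _ (H8.sn_LayP (P := P))]
    exact ⟨h1, fun x hx => H8.commute_of_commutator_eq_bot (H8.commutator_LayP_not ⊤ P) hx h2⟩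
  have hzL : z ∉ centralizer (L : Set G) := fun e => h.ne (by
    rw [← mem_bot, ← hZ _ (H8.sn_Lay ⊤)]
    refine ⟨hzE, ?_⟩
    have : H8.Lay ⊤ ≤ 𝒞 z := H8.Lay_le_iff.2 fun K hK => by
      obtain ⟨u, hu, rfl⟩ := htr K hK
      rw [← conj_eq_of_commute (h.cent u hu).symm, ← H8.cj_centralizer_singleton]
      exact H8.cj_mono (fun x hx => mem_cent1.2 (e x hx)) u
    exact fun x hx => mem_cent1.1 (this hx))
  haveI : (H8.Lay (⊤ : Subgroup G)).Normal := H8.normal_of_top_le (H8.le_normalizer_Lay ⊤)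
  have hM : normalClosure ({z} : Set G) = H8.Lay ⊤ := by
    refine le_antisymm (normalClosure_le_normal (Set.singleton_subset_iff.2 hzE))
      (H8.Lay_le_iff.2 fun K hK => ?_)
    obtain ⟨u, hu, rfl⟩ := htr K hK
    rw [← H8.cj_eq_of_normal (normalClosure ({z} : Set G)) u]
    refine H8.cj_mono ((hL.le_or_comm (H8.SN.of_normal _)).resolve_right fun e => hzL fun x hx =>
      (H8.commute_of_commutator_eq_bot e (subset_normalClosure (Set.mem_singleton z)) hx).symm) u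
  have hLs : IsSimpleGroup L := H8.simple_of_qs_of_center hL.qs (by
    rw [← H8.map_subtype_eq_bot_iff, H8.center_map_subtype, hZ L hL.sn])
  refine ⟨hM.trans hE.symm, ?_⟩
  by_cases h1 : ∀ K, H8.Comp ⊤ K → K = L
  · left
    have : H8.Lay ⊤ = L := le_antisymm (H8.Lay_le_iff.2 fun K hK => (h1 K hK).le) hL.le_Lay
    rw [hM, this]
    exact ⟨hLs, H8.qs_not_comm hL.qs⟩
  right
  push Not at h1
  obtain ⟨L', hL', hne⟩ := h1
  obtain ⟨u, hu, rfl⟩ := htr L' hL'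
  have hC : ∀ K, H8.Comp ⊤ K → K ≠ L → K ≤ centralizer (L : Set G) := fun K hK e =>
    commutator_eq_bot_iff_le_centralizer.1 (hK.comm_of_ne hL e)
  have hC' : H8.LayP ⊤ (fun K => ¬ K = L) ≤ centralizer (L : Set G) := H8.LayP_le_iff.2 hC
  obtain ⟨z₁, hz₁, c, hc, hzc⟩ : ∃ z₁ ∈ L, ∃ c ∈ H8.LayP ⊤ (fun K => ¬ K = L), z = z₁ * c := by
    rw [← H8.LayP_sup_LayP ⊤ (· = L)] at hzE
    obtain ⟨a, ha, b, hb, e⟩ := H8.mem_sup_of_norm_right
      (H8.LayP_le_Lay.trans H8.Lay_le_normalizer_LayP) hzE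
    exact ⟨a, (H8.LayP_le_iff.2 fun K _ e => e.le : _ ≤ L) ha, b, hb, e⟩
  have uq := @eq_of_mul_eq G _ L (hZ L hL.sn)
  have hA : ∀ x ∈ L, ∀ y ∈ centralizer (L : Set G), x * y ∈ zpowers z → x = 1 ∨ x = z₁ :=
    fun x hx y hy e => ((mem_zpowers_invol h.zz).1 e).imp
      (fun e => uq hx (one_mem _) hy (one_mem _) (by simpa using e))
      fun e => uq hx hz₁ hy (hC' hc) (e.trans hzc)
  have hz1 : z₁ ≠ 1 := fun e => hzL (by rw [hzc, e, one_mul]; exact hC' hc)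
  have hz2 : z₁ * z₁ = 1 := uq (mul_mem hz₁ hz₁) (one_mem _) (mul_mem (hC' hc) (hC' hc))
    (one_mem _) (by
      rw [mul_one, ← h.zz, hzc, mul_assoc, mul_assoc, ← mul_assoc c, ← hC' hc z₁ hz₁, mul_assoc])
  have hR : L ⊓ 𝒞 z₁ = L ⊓ 𝒞 z := by
    ext x
    refine and_congr_right fun hx => ?_
    change x ∈ 𝒞 z₁ ↔ x ∈ 𝒞 z
    have e : Commute x c := hC' hc x hx
    rw [mem_cent1, mem_cent1, hzc]
    exact ⟨fun e' => e'.mul_right e, fun e' => by simpa using e'.mul_right e.inv_right⟩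
  have hq : ∀ x ∈ L ⊓ 𝒞 z, x * (u * x⁻¹ * u⁻¹) ∈ Q := fun x hx => by
    have := commElt_mem_right (h.norm hx.2) hu
    simpa [commutatorElement_def, mul_assoc] using this
  have hq' : ∀ x ∈ L, u * x⁻¹ * u⁻¹ ∈ centralizer (L : Set G) := fun x hx =>
    hC _ hL' hne (H8.conj_mem_cj (inv_mem hx))
  have hsq : ∀ x ∈ L ⊓ 𝒞 z, x * x ∈ zpowers z₁ := fun x hx => by
    rw [mem_zpowers_invol hz2]
    refine hA _ (mul_mem hx.1 hx.1) _ (mul_mem (hq' x hx.1) (hq' x hx.1)) ?_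
    have := (mem_zpowers_invol h.zz).2 (h.sq _ (hq x hx))
    rwa [mul_assoc x, ← mul_assoc (u * x⁻¹ * u⁻¹), ← hq' x hx.1 x hx.1, mul_assoc x,
      ← mul_assoc x] at this
  have hS : SylIn 2 (L ⊓ 𝒞 z) L := by
    obtain ⟨T, -, b, c⟩ := h.exists_syl
    have h1 := c.inf_of_sn hL.sn
    rwa [h1.max (L ⊓ 𝒞 z) inf_le_left (isPGroup_iff_forall.2 fun x hx => ⟨2, by
      rw [show 2 ^ 2 = 2 * 2 from rfl, pow_mul, pow_two x]
      rcases (mem_zpowers_invol hz2).1 (hsq x hx) with e | e <;> rw [e]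
      · simp
      · rw [pow_two, hz2]⟩) (le_inf inf_le_right (inf_le_left.trans b))]
  have hz3 : z₁ ∈ L ⊓ 𝒞 z := hR ▸ ⟨hz₁, mem_cent1.2 (Commute.refl _)⟩
  have hnot : ¬ ∀ x ∈ L ⊓ 𝒞 z, x = 1 ∨ x = z₁ := fun e => by
    refine qs_not_cyclic_syl hL.qs hS (fun e => hz1 (by rwa [e, mem_bot] at hz3)) ?_
    rw [show L ⊓ 𝒞 z = zpowers z₁ from le_antisymm (fun x hx => (mem_zpowers_invol hz2).2 (e x hx))
      (zpowers_le.2 hz3)]
    infer_instance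
  have h2 : ∀ K, H8.Comp ⊤ K → K ≠ L → K = H8.cj L u := fun K hK e => by
    by_contra e'
    obtain ⟨w, hw, rfl⟩ := htr K hK
    refine hnot fun x hx => hA x hx.1 ((u * x⁻¹ * u⁻¹) * (w⁻¹ * (u * x * u⁻¹) * w⁻¹⁻¹) *
      (w⁻¹ * x⁻¹ * w⁻¹⁻¹)) (mul_mem (mul_mem (hq' x hx.1) (hC _ (hcj w⁻¹ hL') (fun e'' => e' ?_)
        (H8.conj_mem_cj (H8.conj_mem_cj hx.1)))) (hC _ (hcj w⁻¹ hL) (fun e'' => e ?_)
          (H8.conj_mem_cj (inv_mem hx.1)))) ?_
    · conv_lhs => rw [← e'', H8.cj_cj_inv]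
    · conv_lhs => rw [← e'', H8.cj_cj_inv]
    · have := h.comm_mem (hq x hx) (inv_mem hw)
      simpa [commutatorElement_def, mul_assoc] using this
  have hc' : c ∈ H8.cj L u := (H8.LayP_le_iff.2 fun K hK e => (h2 K hK e).le : _ ≤ H8.cj L u) hc
  refine ⟨L, u, hu, hLs, H8.qs_not_comm hL.qs, eq_bot_iff.2 ((inf_le_inf_left _
    (hC _ hL' hne)).trans (hZ L hL.sn).le), fun x hx y hy => hC _ hL' hne hy x hx, ?_, z₁, hz₁,
    ?_, hR ▸ hS, ?_, fun e => hnot fun x hx => ?_⟩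
  · rw [hM]
    refine le_antisymm (sup_le hL.le_Lay hL'.le_Lay) (H8.Lay_le_iff.2 fun K hK => ?_)
    by_cases e : K = L
    · exact e.le.trans le_sup_left
    · exact (h2 K hK e).le.trans le_sup_right
  · have e1 : u * c * u⁻¹ ∈ L := by
      have := H8.conj_mem_cj (g := u) hc'
      rwa [H8.cj_cj, H8.cj_eq_of_mem_normalizer (H8.Lay_le_normalizer hL ?_)] at this
      rcases h.sq u hu with e | e <;> rw [e]
      · exact one_mem _
      · exact hzE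
    have e2 : u * z₁ * u⁻¹ ∈ centralizer (L : Set G) := hC _ hL' hne (H8.conj_mem_cj hz₁)
    have e3 : z₁ * c = (u * c * u⁻¹) * (u * z₁ * u⁻¹) := by
      rw [e2 _ e1, ← hzc, conj_mul, ← hzc, conj_eq_of_commute (h.cent u hu).symm]
    rw [← uq hz₁ e1 (hC' hc) e2 e3] at e3
    rw [hzc, e3]
  · rw [hR]
    refine H1.map_frattini_le_of_elementary Nat.prime_two (commutator_le.2 fun x hx y hy => ?_)
      fun x hx => by rw [pow_two]; exact hsq x hx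
    have := mul_mem (mul_mem (hsq x hx) (hsq _ (mul_mem (inv_mem hx) hy))) (hsq _ (inv_mem hy))
    simpa [commutatorElement_def, mul_assoc] using this
  · have h3 : L ⊓ 𝒞 z ≤ Q := e ▸ H8.le_Op_of_sn (hL.sn.inf_of_le le_top) hS.pgrp
    refine hA x hx.1 _ (hq' x hx.1) ?_
    simpa [commutatorElement_def, mul_assoc] using h.comm_mem (h3 hx) hu

theorem isSimpleGroup (hQ : Q = H8.Op 2 (𝒞 z)) (hM : 𝒞 z ≤ normalClosure ({z} : Set G)) :
    IsSimpleGroup G := by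
  have h1 := h.sup_cent_eq_top _ (h.le_cent.trans hM)
  rw [sup_eq_left.2 hM] at h1
  by_cases hO : H8.Op 2 (⊤ : Subgroup G) = ⊥
  · obtain ⟨-, h2 | ⟨L, u, -, -, -, -, -, -, -, -, -, -, -, h2⟩⟩ := h.of_Op_eq hl hO
    · rw [h1] at h2
      haveI := h2.1
      exact topEquiv.symm.isSimpleGroup
    · exact absurd hQ h2
  · have h2 := (h.of_Op_ne hl hO).1
    obtain ⟨x, hx, a, b⟩ := h.ntr
    obtain ⟨y, hy, e⟩ := h.exists_not_commute hx a b
    exact absurd (commute_of_comm h2 (hM (h.le_cent hy)) (hM (h.le_cent hx))) e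

end LX

theorem XS.im {Q P X : Subgroup G} {z : G} (h : XS Q z) {Y : Type u} [Group Y] (f : X →* Y)
    (hPQ : P ≤ Q) (hPX : P ≤ X) (hz : z ∈ P) (hk : z ∉ H8.kr f)
    (hnd : ∀ x ∈ P, (∀ y ∈ P, Commute x y) → x ∈ H8.kr f ∨ z * x ∈ H8.kr f)
    (hn : ∃ a ∈ P, ∃ b ∈ P, ¬ Commute a b) : XS (H8.im f P) (f ⟨z, hPX hz⟩) := by
  have hzz : f ⟨z, hPX hz⟩ * f ⟨z, hPX hz⟩ = 1 := by
    rw [← map_mul, ← f.map_one]; congr 1; exact Subtype.ext h.zz
  have hne : f ⟨z, hPX hz⟩ ≠ 1 := fun e => hk ((H8.mem_kr f).2 ⟨_, e⟩)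
  have hc : ∀ x y : X, (x : G) ∈ P → (y : G) ∈ P → Commute (f x) (f y) → Commute (x : G) y :=
    fun x y hx hy e => by
      by_contra hn
      refine hne ?_
      rw [← commutatorElement_eq_one_iff_commute, ← map_commutatorElement] at e
      rw [← e]; congr 1
      exact Subtype.ext (h.comm_eq (hPQ hx) (hPQ hy) hn).symm
  have hcent : ∀ x ∈ H8.im f P, Commute (f ⟨z, hPX hz⟩) x := by
    rintro _ ⟨x, hx, rfl⟩
    exact Commute.map (show Commute (⟨z, hPX hz⟩ : X) x from Subtype.ext (h.cent x (hPQ hx)).eq) f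
  refine ⟨hzz, hne, H8.mem_im_of_mem f _ hz, hcent, ?_, ?_, ?_, ?_⟩
  · rintro _ ⟨x, hx, rfl⟩ _ ⟨y, hy, rfl⟩
    refine (h.comm x (hPQ hx) y (hPQ hy)).imp (fun e => Commute.map (Subtype.ext e) f) fun e => ?_
    rw [← map_inv, ← map_mul, ← map_mul, ← map_mul]; congr 1; exact Subtype.ext e
  · rintro _ ⟨x, hx, rfl⟩
    rw [← map_mul]
    refine (h.sq x (hPQ hx)).imp (fun e => ?_) fun e => ?_
    · rw [← f.map_one]; congr 1; exact Subtype.ext e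
    · congr 1; exact Subtype.ext e
  · rintro _ ⟨x, hx, rfl⟩ hx'
    refine (hnd x hx fun y hy => hc x ⟨y, hPX hy⟩ hx hy (hx' _ (H8.mem_im_of_mem f _ hy))).imp
      (H8.mem_kr' f).1 fun e => ?_
    have := (H8.mem_kr' f (x := ⟨z, hPX hz⟩ * x)).1 e
    rw [map_mul, ← hzz] at this
    exact mul_left_cancel this
  · obtain ⟨a, ha, b, hb, e⟩ := hn
    refine ⟨_, H8.mem_im_of_mem f (hPX ha) ha, fun e' => e (hc ⟨a, hPX ha⟩ ⟨b, hPX hb⟩ ha hb ?_),
      fun e' => e (hc ⟨a, hPX ha⟩ ⟨b, hPX hb⟩ ha hb ?_)⟩ <;> rw [e']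
    · exact Commute.one_left _
    · exact hcent _ (H8.mem_im_of_mem f _ hb)

theorem XS.exists_pair {Q : Subgroup G} {z : G} (h : XS Q z) :
    ∃ a ∈ Q, ∃ b ∈ Q, ¬ Commute a b := by
  obtain ⟨x, hx, a, b⟩ := h.ntr
  obtain ⟨y, hy, e⟩ := h.exists_not_commute hx a b
  exact ⟨y, hy, x, hx, e⟩

theorem XS.exists_conj_cent [Finite G] {Q : Subgroup G} {z s t : G} (h : XS Q z) (hs : s ∈ Q)
    (hss : s * s = 1) (ht : t ∈ Q) (h1 : t ≠ 1) (h2 : t ≠ z) (h3 : t ≠ s) (h4 : t ≠ s * z) :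
    ∃ y ∈ Q, Commute y s ∧ y * t * y⁻¹ = t * z := by
  by_contra hn
  push Not at hn
  have := h.mem_of_cent_cent hs hss ht fun y hy e => by
    by_contra e'
    exact hn y hy e (h.conj_eq hy ht e')
  tauto

theorem card_ne_eight {Q : Type*} {w : ℕ} (hw : 2 ≤ w) (h : Nat.card Q = 2 ^ (2 * w + 1)) :
    Nat.card Q ≠ 8 := fun e => by
  have := Nat.pow_right_injective le_rfl (h.symm.trans (e.trans (show 8 = 2 ^ 3 from rfl)))
  omega

end Cfsg.Agent.H2
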