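import Cfsg.Agent.H3.Misc
import Cfsg.Agent.H3.TI
import Cfsg.Agent.H3.Galois
import Cfsg.Prelude.Def_OddOrderChar

/-! T.I. subgroups with Frobenius normalizer: exceptional characters. -/

set_option autoImplicit false

namespace Cfsg.Agent.H2.TIF

open Cfsg Subgroup H3

theorem const {L : Type*} [Group L] [Fintype L] {K : L → Prop} {δ : L → ℂ} (hδ : IsClassFunction L δ) {r : ℂ}
    (h : ∀ ξ, IsIrrCharacter L ξ → (∃ k, K k ∧ ξ k ≠ ξ 1) → classInner δ ξ = r * ξ 1) {a b : L} (ha : K a) (hb : K b)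
    (a1 : a ≠ 1) (b1 : b ≠ 1) : δ a = δ b := by
  have key : ∀ g ≠ 1, δ g = ∑ η : IrrCharacter L, (classInner δ η - r * (η : L → ℂ) 1) * (η : L → ℂ) g := fun g hg => by
    simp only [sub_mul, Finset.sum_sub_distrib, mul_assoc, ← Finset.mul_sum, sum_irr_degree_mul_of_ne hg, mul_zero,
      sub_zero]
    simpa using congrFun hδ.eq_sum_irr g
  rw [key a a1, key b b1]
  refine Finset.sum_congr rfl fun η _ => ?_
  by_cases e : ∃ k, K k ∧ (η : L → ℂ) k ≠ (η : L → ℂ) 1
  · rw [h _ η.2 e, sub_self, zero_mul, zero_mul]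
  · push Not at e
    rw [e a ha, e b hb]

theorem int_of_deg {K : Type*} [Group K] [Finite K] {x : ℂ} {θ₀ : K → ℂ} (h0 : IsIrrCharacter K θ₀)
    (h1 : θ₀ ≠ fun _ => 1) (h : ∀ θ, IsIrrCharacter K θ → (θ ≠ fun _ => 1) → ∃ n : ℤ, x * θ 1 = n) :
    ∃ n : ℤ, x = n := by
  classical
  have := Fintype.ofFinite K
  let R := (Int.castRingHom ℂ).range
  have a1 : x * Nat.card K ∈ R := by
    obtain ⟨c, hc⟩ := h0.degree_dvd_card
    obtain ⟨n, hn⟩ := h _ h0 h1
    rw [hc, Nat.cast_mul, h0.cast_charDegree, ← mul_assoc, hn]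
    exact R.mul_mem (intCast_mem R n) (natCast_mem R c)
  rw [← sum_irr_charDegree_sq, ← Finset.add_sum_erase _ _ (Finset.mem_univ ⟨_, isIrrCharacter_one⟩), Nat.cast_add,
    Nat.cast_pow, isIrrCharacter_one.cast_charDegree, one_pow, mul_add, mul_one, Nat.cast_sum, Finset.mul_sum,
    add_mem_cancel_right (sum_mem fun θ hθ => ?_)] at a1
  · exact a1.imp fun n e => e.symm
  obtain ⟨n, hn⟩ := h _ θ.2 fun e => (Finset.mem_erase.1 hθ).1 (Subtype.ext e)
  rw [Nat.cast_pow, pow_two, ← mul_assoc, θ.2.cast_charDegree, hn, ← θ.2.cast_charDegree]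
  exact R.mul_mem (intCast_mem R n) (natCast_mem R _)

variable {G : Type*} [Group G] [Fintype G] {K : Subgroup G}

omit [Fintype G] in
theorem cent (hC : ∀ k ∈ K, k ≠ 1 → centralizer ({k} : Set G) ≤ K) : ∀ n ∈ K.subgroupOf (normalizer (K : Set G)),
    n ≠ 1 → centralizer {n} ≤ K.subgroupOf (normalizer (K : Set G)) := fun n hn h1 _ hy =>
  hC n hn (fun h => h1 (Subtype.ext h))
    (mem_centralizer_singleton_iff.2 (congrArg Subtype.val (mem_centralizer_singleton_iff.1 hy)))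

variable [Fintype (normalizer (K : Set G))] {S : Set (normalizer (K : Set G) → ℂ)}
  {star : (normalizer (K : Set G) → ℂ) → G → ℂ} {χ ξ φ : normalizer (K : Set G) → ℂ}

omit [Fintype G] in
theorem rel (hC : ∀ k ∈ K, k ≠ 1 → centralizer ({k} : Set G) ≤ K) (h : IsIrrCharacter _ χ)
    (hk : ∃ k : normalizer (K : Set G), (k : G) ∈ K ∧ χ k ≠ χ 1) :
    ∃ θ : K.subgroupOf (normalizer (K : Set G)) → ℂ, IsIrrCharacter _ θ ∧ (θ ≠ fun _ => 1) ∧ χ = indFun _ θ :=
  h.exists_eq_ind_of_frobenius (fun e => hk.elim fun _ hk => hk.2 (h.mem_charKer_iff.1 (e hk.1))) (cent hC)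

omit [Fintype G] in
theorem van (hC : ∀ k ∈ K, k ≠ 1 → centralizer ({k} : Set G) ≤ K) (h : IsIrrCharacter _ χ)
    (hk : ∃ k : normalizer (K : Set G), (k : G) ∈ K ∧ χ k ≠ χ 1) (x : normalizer (K : Set G)) (hx : (x : G) ∉ K) :
    χ x = 0 := by
  obtain ⟨θ, -, -, rfl⟩ := rel hC h hk
  exact indFun_eq_zero_of_not_mem _ hx

/-- The standard degree zero combination. -/
noncomputable def al {X : Type*} [Group X] (χ ξ : X → ℂ) : X → ℂ :=
  (charDegree χ : ℤ) • ξ + (-charDegree ξ : ℤ) • χ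

theorem al_one {X : Type*} [Group X] {χ ξ : X → ℂ} (h : IsIrrCharacter X χ) (h' : IsIrrCharacter X ξ) :
    al χ ξ 1 = 0 := by
  simp [al, h.cast_charDegree, h'.cast_charDegree, mul_comm]

theorem al_apply {X : Type*} [Group X] {χ ξ : X → ℂ} (h : IsIrrCharacter X χ) (h' : IsIrrCharacter X ξ) (x : X) :
    al χ ξ x = χ 1 * ξ x - ξ 1 * χ x := by
  simp [al, h.cast_charDegree, h'.cast_charDegree, sub_eq_add_neg]

theorem al_class {X : Type*} [Group X] {χ ξ : X → ℂ} (h : IsIrrCharacter X χ) (h' : IsIrrCharacter X ξ) :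
    IsClassFunction X (al χ ξ) := fun x y => by
  rw [al_apply h h', al_apply h h', h.isClassFunction, h'.isClassFunction]

theorem inner_comb {X : Type*} [Group X] [Fintype X] (δ u v : X → ℂ) (a b : ℕ) :
    classInner δ ((a : ℤ) • u + (-b : ℤ) • v) = a * classInner δ u - b * classInner δ v := by
  rw [classInner_add_right, ← Int.cast_smul_eq_zsmul ℂ, ← Int.cast_smul_eq_zsmul ℂ, classInner_smul_right,
    classInner_smul_right]
  simp [sub_eq_add_neg]

theorem ind_al (hS : ∀ χ ∈ S, IsIrrCharacter _ χ) (hstar : IsLinearIsometryOn (zspan S) star)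
    (hext : ∀ α ∈ zspanOn S {1}ᶜ, star α = indFun _ α) (h : χ ∈ S) (h' : ξ ∈ S) :
    indFun _ (al χ ξ) = (charDegree χ : ℤ) • star ξ + (-charDegree ξ : ℤ) • star χ := by
  have a : χ ∈ zspan S := Submodule.subset_span h
  have b : ξ ∈ zspan S := Submodule.subset_span h'
  have a' := Submodule.smul_mem (Submodule.span ℤ S) (-charDegree ξ : ℤ) a
  have b' := Submodule.smul_mem (Submodule.span ℤ S) (charDegree χ : ℤ) b
  rw [← hext (al χ ξ) ⟨Submodule.add_mem _ b' a', fun x hx => by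
    rw [not_not.1 hx]; exact al_one (hS _ h) (hS _ h')⟩, al, hstar.1 _ b' _ a', hstar.2.1 _ a, hstar.2.1 _ b]

theorem ratio (hS : S = {χ | IsIrrCharacter _ χ ∧ ∃ k : normalizer (K : Set G), (k : G) ∈ K ∧ χ k ≠ χ 1})
    (hstar : IsLinearIsometryOn (zspan S) star) (hext : ∀ α ∈ zspanOn S {1}ᶜ, star α = indFun _ α) (h : χ ∈ S)
    {ψ : G → ℂ} (hψ : IsClassFunction G ψ) (hφ : IsClassFunction _ φ)
    (h1 : ∀ ξ ∈ S, classInner ψ (star ξ) = classInner φ ξ) {a b : normalizer (K : Set G)} (ha : (a : G) ∈ K)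
    (hb : (b : G) ∈ K) (a1 : a ≠ 1) (b1 : b ≠ 1) : ψ a - φ a = ψ b - φ b := by
  have hI : ∀ χ ∈ S, IsIrrCharacter _ χ := fun χ h => (hS.le h).1
  refine const (K := fun x : normalizer (K : Set G) => (x : G) ∈ K) (δ := (fun x : normalizer (K : Set G) => ψ x) - φ)
    (fun x y => by simp [hψ _ _, hφ x y])
    (r := classInner ((fun x : normalizer (K : Set G) => ψ x) - φ) χ / χ 1) (fun ξ h2 h3 => ?_) ha hb a1 b1
  have h4 : ξ ∈ S := hS.ge ⟨h2, h3⟩
  have h5 := classInner_indFun_right (al χ ξ) hψ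
  rw [ind_al hI hstar hext h h4, al, inner_comb, inner_comb, h1 _ h, h1 _ h4, h2.cast_charDegree,
    (hI _ h).cast_charDegree] at h5
  have h6 := (hI _ h).apply_one_ne_zero
  rw [classInner_sub_left, classInner_sub_left]
  field_simp
  linear_combination -h5

end Cfsg.Agent.H2.TIF
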