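import Cfsg.Agent.H2.JC5
import Cfsg.Agent.H2.MC2
import Cfsg.Agent.H8.SFApp

/-! Groups whose involution centralizers are solvable and with `C(Ω₁Z(S)) ≤ N(S)`. -/

namespace Cfsg.Agent.H2.JC

open Subgroup Cfsg.Agent.H2 Cfsg.Agent.BG Cfsg.Agent.SF Cfsg.Agent.H2.A3
open Cfsg.Agent.H8 (Op Opp SN Fs)
open scoped commutatorElement

universe u
variable {G : Type u} [Group G] [Finite G]
  {A B D E H M N P Q R S T U V W X Y : Subgroup G} {a d g s t x y z : G} {k : ℕ}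

theorem ord2_of (h1 : x * x = 1) (h2 : x ≠ 1) : orderOf x = 2 :=
  orderOf_eq_prime (by rw [sq, h1]) h2

omit [Finite G] in
theorem sq_of_ord2 (h : orderOf x = 2) : x * x = 1 := by rw [← sq, ← h, pow_orderOf_eq_one]

omit [Finite G] in
theorem ne_one_of_ord2 (h : orderOf x = 2) : x ≠ 1 := by rintro rfl; simp at h

omit [Finite G] in
theorem mem_zpowers_ord2 (h : x * x = 1) : y ∈ zpowers x ↔ y = 1 ∨ y = x := by
  constructor
  · rintro ⟨n, rfl⟩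
    have e : x ^ (2 : ℤ) = 1 := by rw [zpow_two, h]
    obtain ⟨m, hm | hm⟩ := Int.even_or_odd' n
    · left; simp only [hm, zpow_mul, e, one_zpow]
    · right; simp only [hm, zpow_add, zpow_mul, e, one_zpow, one_mul, zpow_one]
  · rintro (rfl | rfl)
    exacts [one_mem _, mem_zpowers _]

theorem vx_succ (hA : Vx 2 k X A) (hx : x ∈ X) (h : x * x = 1) (hc : A ≤ 𝒞₁ x) (hn : x ∉ A) :
    Vx 2 (k + 1) X (A ⊔ zpowers x) := by
  have e := H8.elem_sup hA.elem (H8.isElementaryAbelian_zpowers (p := 2) (by rw [sq, h]))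
    (by rw [BL.cent_zpowers]; exact hc)
  refine ⟨sup_le hA.le (zpowers_le.2 hx), e, Nat.le_of_dvd Nat.card_pos
    (pow_dvd_card_of_lt (H8.elem_isPGroup e) (hA.card.trans_lt ?_))⟩
  exact card_lt_of_lt (lt_of_le_of_ne le_sup_left fun e => hn (e ▸ mem_sup_right (mem_zpowers x)))

theorem vx_inf (hA : Vx 2 (k + 1) X A) (h : Ix2 M X) : Vx 2 k X (M ⊓ A) := by
  refine ⟨inf_le_right.trans hA.le, H8.elem_of_le hA.elem inf_le_right, ?_⟩
  have := (h.mono hA.le).card_le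
  have h2 := hA.card
  rw [pow_succ] at h2
  omega

/-- the centralizer of a normal four-subgroup has index at most two -/
theorem ix2_cent_four (hP : IsPGroup 2 P) (hB : ♯B = 4) (hn : P ≤ 𝒩 B) : Ix2 (𝒞 B) P := by
  have h1 := relIndex_centralizer_dvd_six hB hn
  obtain ⟨n, hn⟩ := IsPGroup.index hP ((𝒞 B).subgroupOf P)
  refine ix2_of_dvd ?_
  change (𝒞 B).relIndex P = _ at hn
  rw [hn] at h1 ⊢
  exact (Nat.Coprime.dvd_mul_right (Nat.Coprime.pow_left n (by norm_num : Nat.Coprime 2 3))).1 h1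

theorem exists_four (hP : IsPGroup 2 P) (hA : Vx 2 3 P A) :
    ∃ B, Vx 2 2 P B ∧ ♯B = 4 ∧ Ix2 (𝒞 B) P := by
  obtain ⟨U, hU, h1, h2⟩ := exists_normal_p2 hP (hA.not_rank hA.le)
  have c : ♯(U.map P.subtype) = 4 := by rw [card_map_of_injective P.subtype_injective, h2]; rfl
  exact ⟨U.map P.subtype, ⟨map_subtype_le _, elem_map_subtype_iff.2 h1, c.ge⟩, c,
    ix2_cent_four hP c (H8.le_normalizer_map_subtype_of_normal U)⟩

theorem conn3 (hP : IsPGroup 2 P) (hA : Vx 2 3 P A) (hA' : Vx 2 3 P D) : Conn 2 2 P A D := by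
  obtain ⟨B, hB, -, ix⟩ := exists_four hP hA
  have key : ∀ A, Vx 2 3 P A → Conn 2 2 P A B := fun A hA =>
    (Conn.of_le hA.pred (vx_inf hA ix) hA.elem.1 le_rfl inf_le_right).trans
      (Conn.single (vx_inf hA ix) hB inf_le_left)
  exact (key A hA).trans (key D hA').symm

/-- a `2`-group with a centralizer of order at most four has a cyclic subgroup of index two -/
theorem dsq_of_cent (hS : IsPGroup 2 S) (hs : s ∈ S) (h : ♯↥(S ⊓ 𝒞₁ s) ≤ 4) (h4 : 4 < ♯S) : DSQ S := by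
  refine dsq_of_index hS (index_commutator_of_cent hS (x := ⟨s, hs⟩) ?_ h4) h4.ne'
  refine le_trans (le_of_eq ?_) h
  rw [← card_map_of_injective (K := centralizer {(⟨s, hs⟩ : S)}) S.subtype_injective]
  congr 2
  ext x
  simp only [mem_map, mem_inf, mem_cent1, coe_subtype]
  constructor
  · rintro ⟨y, hy, rfl⟩
    exact ⟨y.2, congrArg Subtype.val hy⟩
  · rintro ⟨h1, h2⟩
    exact ⟨⟨x, h1⟩, Subtype.ext h2, rfl⟩

theorem DSQ.exists_ix2 (h : DSQ S) : ∃ a ∈ S, Ix2 (zpowers a) S := by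
  suffices ∃ a : S, ♯S ≤ 2 * orderOf a by
    obtain ⟨a, ha⟩ := this
    exact ⟨a, a.2, ix2_of_card (zpowers_le.2 a.2) (by rwa [Nat.card_zpowers, orderOf_coe])⟩
  rcases h with ⟨k, ⟨e⟩⟩ | ⟨k, h1, a, b, h2, -⟩ | ⟨k, ⟨e⟩⟩
  · refine ⟨e.symm (.r 1), ?_⟩
    rw [MulEquiv.orderOf_eq, DihedralGroup.orderOf_r_one, Nat.card_congr e.toEquiv, DihedralGroup.nat_card]
  · exact ⟨a, by rw [h1, h2, pow_succ' 2 (k + 3)]⟩
  · refine ⟨e.symm (.a 1), ?_⟩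
    rw [MulEquiv.orderOf_eq, QuaternionGroup.orderOf_a_one, Nat.card_congr e.toEquiv, Nat.card_eq_fintype_card,
      QuaternionGroup.card]
    omega

/-- Thompson transfer for involutions of `O²(G)` -/
theorem exists_conj_mem_ix2 (hS : SylIn 2 S ⊤) (h : Ix2 M S) (ht : orderOf t = 2) (h1 : t ∈ S)
    (h2 : t ∈ resOf 2 (⊤ : Subgroup G)) : ∃ g, g * t * g⁻¹ ∈ M ⊓ S := by
  by_cases e : S ≤ M
  · exact ⟨1, by simpa using ⟨e h1, h1⟩⟩
  by_contra hn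
  push Not at hn
  have hi : Odd S.index := by
    have := hS.not_dvd_relIndex
    rw [relIndex_top_right] at this
    exact Nat.odd_iff.2 (by omega)
  obtain ⟨N, hN, h3, h4⟩ := thompson_transfer (Q := M ⊓ S) hi (by rw [inf_relIndex_right]; exact h.relIndex e) ht h1 hn
  refine h4 (resOf_le_of_relIndex (k := 1) (by rw [normalizer_eq_top]) ?_ h2)
  rw [relIndex_top_right, h3, pow_one]

theorem exists_pow_ord2 (hS : IsPGroup 2 S) (hx : x ∈ S) (h : x ≠ 1) : ∃ n : ℕ, orderOf (x ^ n) = 2 := by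
  obtain ⟨y, hy, h1⟩ := H8.exists_orderOf_eq_of_ne_bot (hS.to_le (zpowers_le.2 hx)) (by simpa using h)
  obtain ⟨n, rfl⟩ := (mem_powers_iff_mem_zpowers.2 hy)
  exact ⟨n, h1⟩

omit [Finite G] in
theorem card_le_four_of (h : ∀ d ∈ D, d = 1 ∨ d = s ∨ d = z ∨ d = s * z) : ♯D ≤ 4 := by
  classical
  have : (D : Set G) ⊆ ({1, s, z, s * z} : Finset G) := fun d hd => by simpa using h d hd
  calc ♯D = (D : Set G).ncard := rfl
    _ ≤ _ := Set.ncard_le_ncard this (Finset.finite_toSet _)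
    _ ≤ 4 := by rw [Set.ncard_coe_finset]; exact Finset.card_le_four

structure ZC (G : Type u) [Group G] : Prop where
  sol : ∀ t : G, orderOf t = 2 → Group.IsSolvable (𝒞₁ t)
  zz : ∀ S : Subgroup G, SylIn 2 S ⊤ → 𝒞 (OZ S) ≤ 𝒩 S

/-- `s` lies in no elementary abelian subgroup of order eight of `S` -/
def Iso (S : Subgroup G) (z s : G) : Prop :=
  ∀ u ∈ S ⊓ 𝒞₁ s, u * u = 1 → u = 1 ∨ u = s ∨ u = z ∨ u = s * z

theorem iso_of (hz : z ∈ OZ S) (h1 : z ≠ 1) (hs : s ∈ S) (h2 : s * s = 1) (h3 : s ∉ zpowers z)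
    (h : ∀ A, Vx 2 3 S A → s ∉ A) : Iso S z s := by
  obtain ⟨z1, z2, z3⟩ := mem_OZ.1 hz
  intro u hu u2
  have v := vx_sup_zpowers (p := 2) hs z1 (by rw [sq, h2]) (by rw [sq, z3]) h1 (mem_cent1.2 (z2 s hs).symm) h3
  by_cases e : u ∈ zpowers s ⊔ zpowers z
  · have : zpowers s ≤ 𝒩 (zpowers z) := (H8.elem_le_normalizer v.elem le_sup_right).trans' le_sup_left
    obtain ⟨a, ha, b, hb, rfl⟩ := H8.mem_sup_of_norm_right this e
    rcases (mem_zpowers_ord2 h2).1 ha with rfl | rfl <;> rcases (mem_zpowers_ord2 z3).1 hb with rfl | rfl <;> simp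
  · refine absurd (mem_sup_left (mem_sup_left (mem_zpowers s))) (h _ (vx_succ v hu.1 u2 (sup_le ?_ ?_) e))
    · exact zpowers_le.2 (mem_cent1.2 (mem_cent1.1 hu.2).symm)
    · exact zpowers_le.2 (mem_cent1.2 (z2 u hu.1))

abbrev WA (A : Subgroup G) : Subgroup G := signalizerClosure A fun a => Opp 2 (𝒞₁ a)

namespace ZC
variable (c : ZC G)
include c

theorem norm_OZ (hS : SylIn 2 S ⊤) : 𝒩 (OZ S) ≤ 𝒩 S := by
  have h1 : S ≤ 𝒞 (OZ S) := le_cent_comm.1 (OZ_le_cent S)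
  have h2 : Op 2 (𝒞 (OZ S)) = S :=
    hS.max _ le_top (H8.Op_isPGroup 2 _) (H8.le_Op h1 (c.zz S hS) hS.pgrp)
  conv_rhs => rw [← h2]
  exact (H8.normalizer_le_normalizer_centralizer _).trans (H8.normalizer_le_Op 2 _)

theorem cent_le (hS : SylIn 2 S ⊤) (hz : OZ S = zpowers z) : 𝒞₁ z ≤ 𝒩 S := by
  rw [← BL.cent_zpowers, ← hz]; exact c.zz S hS

theorem le_of_cent (hS : SylIn 2 S ⊤) (hz : OZ S = zpowers z) (hT : IsPGroup 2 T) (h : T ≤ 𝒞₁ z) : T ≤ S :=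
  hS.le_of_le_normalizer hT le_top (h.trans (c.cent_le hS hz))

theorem key (hS : SylIn 2 S ⊤) (hz : OZ S = zpowers z) (z2 : orderOf z = 2) (hs : s ∈ S) (s2 : orderOf s = 2)
    (hne : s ≠ z) (iso : Iso S z s) (hT : IsPGroup 2 T) (h1 : S ⊓ 𝒞₁ s < T) (h2 : T ≤ 𝒞₁ s) :
    IsConj z s ∧ IsConj z (s * z) ∧ (Ix2 (𝒞₁ s) S ∨ ∃ a ∈ S, Ix2 (zpowers a) S) := by
  set D := S ⊓ 𝒞₁ s with hD
  obtain ⟨z1, zc, zz⟩ := mem_OZ.1 (hz ▸ mem_zpowers z : z ∈ OZ S)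
  have ss := sq_of_ord2 s2
  have fz : ∀ y ∈ S, y * z * y⁻¹ = z := fun y hy => by rw [zc y hy, mul_inv_cancel_right]
  have sD : s ∈ D := ⟨hs, mem_cent1.2 rfl⟩
  have zD : z ∈ D := ⟨z1, mem_cent1.2 (zc s hs)⟩
  have cq : ∀ (g : G) {u : G}, u * u = 1 → g * u * g⁻¹ * (g * u * g⁻¹) = 1 := fun g u h => by
    rw [conj_mul, h, mul_one, mul_inv_cancel]
  -- `x` interchanges `z` and `s z`
  obtain ⟨x, xT, xn, xD⟩ := exists_mem_normalizer_not_mem hT h1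
  have ex : x * z * x⁻¹ = s * z := by
    rcases iso _ ((xn z).1 zD) (cq x zz) with e | e | e | e
    · exact absurd (by simpa using e) (ne_one_of_ord2 z2)
    · refine absurd ?_ hne
      have := mem_cent1.1 (h2 xT)
      rw [mul_inv_eq_iff_eq_mul, this, mul_left_cancel_iff] at e
      exact e.symm
    · refine absurd ⟨zpowers_le.1 (c.le_of_cent hS hz (hT.to_le (zpowers_le.2 xT)) (zpowers_le.2 ?_)), h2 xT⟩ xD
      exact mem_cent1.2 (mul_inv_eq_iff_eq_mul.1 e).symm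
    · exact e
  have ey : ∀ y ∈ S ⊓ 𝒩 D, y ∉ D → y * s * y⁻¹ = s * z := fun y hy yD => by
    rcases iso _ ((hy.2 s).1 sD) (cq y ss) with e | e | e | e
    · exact absurd (by simpa using e) (ne_one_of_ord2 s2)
    · exact absurd ⟨hy.1, mem_cent1.2 (mul_inv_eq_iff_eq_mul.1 e).symm⟩ yD
    · rw [← fz y hy.1, mul_left_inj, mul_right_inj] at e
      exact absurd e hne
    · exact e
  have DS : D < S := lt_of_le_of_ne inf_le_left fun e => by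
    have : s ∈ OZ S := mem_OZ.2 ⟨hs, fun y hy => (mem_cent1.1 (e.ge hy).2).symm, ss⟩
    rw [hz, mem_zpowers_ord2 zz] at this
    exact this.elim (ne_one_of_ord2 s2) hne
  obtain ⟨y, yS, yn, yD⟩ := exists_mem_normalizer_not_mem hS.pgrp DS
  have c1 : IsConj z (s * z) := isConj_iff.2 ⟨x, ex⟩
  refine ⟨c1.trans (isConj_iff.2 ⟨y, ey y ⟨yS, yn⟩ yD⟩ : IsConj s (s * z)).symm, c1, ?_⟩
  have ix : Ix2 D (S ⊓ 𝒩 D) := fun a ha b hb aD bD => by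
    refine ⟨mul_mem ha.1 hb.1, mem_cent1.2 (mul_inv_eq_iff_eq_mul.1 ?_).symm⟩
    calc a * b * s * (a * b)⁻¹ = a * (b * s * b⁻¹) * a⁻¹ := by group
      _ = a * s * a⁻¹ * (a * z * a⁻¹) := by rw [ey b hb bD]; group
      _ = s := by rw [ey a ha aD, fz a ha.1, mul_assoc, zz, mul_one]
  by_cases e : S ≤ 𝒩 D
  · exact Or.inl ((ix.mono (le_inf le_rfl e)).of_le inf_le_right)
  right
  obtain ⟨u, uS, un, uD⟩ := exists_mem_normalizer_not_mem hS.pgrp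
    (lt_of_le_of_ne inf_le_left fun e' => e (e'.ge.trans inf_le_right) : S ⊓ 𝒩 D < S)
  have ixE : Ix2 (u ⋆ D) D := by
    have := AM.ix2_cj ix u
    rw [cj_eq_of_mem_normalizer un] at this
    exact this.mono (le_inf inf_le_left le_normalizer)
  have zE : z ∈ u ⋆ D := fz u uS ▸ conj_mem_cj u zD
  have sE : s ∉ u ⋆ D := fun h => by
    have h' := mem_cj.1 h
    have key : ∀ w, u⁻¹ * s * u = w → 𝒞₁ s ⊓ S ≤ 𝒞₁ w → False := fun w e1 e2 => by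
      refine uD ⟨uS, mem_normalizer_of_cj_le (cj_le_iff_forall.2 fun d hd => ⟨S.mul_mem (S.mul_mem uS hd.1) (inv_mem uS), ?_⟩)⟩
      have := mem_cent1_conj (e2 ⟨hd.2, hd.1⟩) u
      rwa [← e1, show u * (u⁻¹ * s * u) * u⁻¹ = s by group] at this
    rcases iso _ h' (by simpa using cq u⁻¹ ss) with e1 | e1 | e1 | e1
    · exact ne_one_of_ord2 s2 (by simpa using (conj_eq_one_iff (a := u⁻¹)).1 (by simpa using e1))
    · exact key s e1 inf_le_left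
    · refine hne ?_
      rw [← fz u uS, ← e1]; group
    · refine key _ e1 fun d hd => mem_cent1.2 ?_
      rw [mul_assoc, ← zc d hd.2, ← mul_assoc, mem_cent1.1 hd.1, mul_assoc]
  have szE : s * z ∉ u ⋆ D := fun h => sE (by simpa using mul_mem h (inv_mem zE))
  have sq1 : ∀ d ∈ D, d * d = 1 := fun d hd => by
    by_contra hn
    obtain ⟨n, h3⟩ := exists_pow_ord2 hS.pgrp (mul_mem hd.1 hd.1) hn
    have h4 : (d * d) ^ n ∈ u ⋆ D := pow_mem (ixE.sq hd) n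
    rcases iso _ (pow_mem (mul_mem hd hd) n) (sq_of_ord2 h3) with e1 | e1 | e1 | e1
    · exact ne_one_of_ord2 h3 e1
    · exact sE (e1 ▸ h4)
    · refine szE ?_
      rw [← ex, ← e1, ← conj_pow, ← conj_mul]
      exact pow_mem (ixE.sq ((xn d).1 hd)) n
    · exact szE (e1 ▸ h4)
  have c4 : ♯D ≤ 4 := card_le_four_of fun d hd => iso d hd (sq1 d hd)
  refine DSQ.exists_ix2 (dsq_of_cent hS.pgrp hs c4 (lt_of_le_of_lt ?_ (card_lt_of_lt DS)))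
  exact (vx_sup_zpowers (p := 2) sD zD (by rw [sq, ss]) (by rw [sq, zz]) (ne_one_of_ord2 z2)
    (mem_cent1.2 (zc s hs).symm) (by
      rw [mem_zpowers_ord2 zz]; exact fun h => h.elim (ne_one_of_ord2 s2) hne)).card.trans (card_le_of_le
        (sup_le (zpowers_le.2 sD) (zpowers_le.2 zD)))

theorem pl (ht : orderOf t = 2) : H8.PLay 2 (𝒞₁ t) = ⊥ := H8.PLay_eq_bot_of_solvable (c.sol t ht)

theorem gf : GF 2 fun a : G => Opp 2 (𝒞₁ a) := gf_core fun _ ht => c.pl ht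

theorem norm_le_W (hP : IsPGroup 2 P) (hA : Vx 2 3 P A) : 𝒩 P ≤ 𝒩 (WA A) := fun g hg => by
  have := hA.cj g
  rw [cj_eq_of_mem_normalizer hg] at this
  exact c.gf.cstab_le ((conn3 hP hA this).mono le_top)

theorem good (hA : Vx 2 3 ⊤ A) (hs : s ∈ A) (h1 : s ≠ 1) : 𝒞₁ s ≤ 𝒩 (WA A) := by
  have s2 : orderOf s = 2 := orderOf_of_elem hA.elem hs h1
  have ss := sq_of_ord2 s2
  have AC : A ≤ 𝒞₁ s := BL.cent_zpowers s ▸ H8.elem_le_centralizer_of_le hA.elem (zpowers_le.2 hs)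
  obtain ⟨T, hT, hAT⟩ := exists_sylIn_ge hA.pg AC
  obtain ⟨S, hS, hTS⟩ := exists_sylIn_ge hT.pgrp le_top
  have sS : s ∈ S := hTS (hAT hs)
  by_cases e : OZ S ≤ zpowers s
  · obtain ⟨z, hz, z1⟩ := H8.exists_mem_ne_one (OZ_ne_bot hS.pgrp fun h => h1 (by simpa [h] using sS))
    have : OZ S = zpowers s := le_antisymm e
      (zpowers_le.2 (((mem_zpowers_ord2 ss).1 (e hz)).resolve_left z1 ▸ hz))
    exact (c.cent_le hS this).trans (c.norm_le_W hS.pgrp ⟨hAT.trans hTS, hA.elem, hA.card⟩)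
  obtain ⟨z, hz, hn⟩ := SetLike.not_le_iff_exists.1 e
  obtain ⟨z1, zc, zz⟩ := mem_OZ.1 hz
  have hQ : SylIn 2 (T ⊓ OppP 2 (𝒞₁ s)) (OppP 2 (𝒞₁ s)) := hT.inf_normal' (le_normalizer_OppP 2 _) (OppP_le 2 _)
  set Q := T ⊓ OppP 2 (𝒞₁ s) with hQ'
  have eT : S ⊓ 𝒞₁ s = T := hT.max _ inf_le_right (hS.pgrp.to_le inf_le_left) (le_inf hTS hT.le)
  have zC : z ∈ 𝒞₁ s := mem_cent1.2 (zc s sS)
  have zQ' : z ∈ 𝒞 Q := fun y hy => zc y (hTS hy.1)
  have sQ' : s ∈ 𝒞 Q := fun y hy => (mem_cent1.1 (hT.le hy.1)).symm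
  have zQ : z ∈ OZ Q := mem_OZ.2 ⟨⟨eT ▸ ⟨z1, zC⟩, solvable_p_constrained (c.sol s s2) hQ ⟨zC, zQ'⟩⟩, zQ', zz⟩
  have sQ : s ∈ OZ Q :=
    mem_OZ.2 ⟨⟨hAT hs, solvable_p_constrained (c.sol s s2) hQ ⟨mem_cent1.2 rfl, sQ'⟩⟩, sQ', ss⟩
  have v := vx_sup_zpowers (p := 2) (mem_top z) (mem_top s) (by rw [sq, zz]) (by rw [sq, ss]) h1 zC hn
  have vle : zpowers z ⊔ zpowers s ≤ OZ Q := sup_le (zpowers_le.2 zQ) (zpowers_le.2 sQ)
  have cn : Conn 2 2 ⊤ (OZ Q) A :=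
    (Conn.of_le (v.of_ge vle le_top (ae_OZ Q)) v (ae_OZ Q).1 le_rfl vle).trans (Conn.single v hA.pred
      (sup_le (zpowers_le.2 fun y hy => zc y (hTS (hAT hy))) (zpowers_le.2 fun y hy => (mem_cent1.1 (AC hy)).symm)))
  have nQ : 𝒩 Q ≤ 𝒩 (WA A) := fun g hg => by
    have : g ∈ cstab 2 2 (OZ Q) := by
      change Conn 2 2 ⊤ _ _
      rw [cj_eq_of_mem_normalizer (norm_le_OZ Q hg)]
      exact Conn.refl _
    have h := c.gf.cstab_le this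
    rwa [c.gf.conn cn] at h
  rw [← hQ.frattini_sup (OppP_le 2 _) (le_normalizer_OppP 2 _), OppP_eq_sup hQ]
  exact sup_le (sup_le ((le_clos (θ := fun a => Opp 2 (𝒞₁ a)) hs h1).trans le_normalizer) (le_normalizer.trans nQ)) (inf_le_right.trans nQ)

omit c in
theorem normal_sup (hS : SylIn 2 S ⊤) : (resOf 2 ⊤ ⊔ OZ S).Normal := by
  rw [← normalizer_eq_top_iff, eq_top_iff]
  refine hS.resOf_sup.ge.trans (sup_le (le_sup_left.trans le_normalizer) fun g hg => mem_normalizer_iff_cj.2 ?_)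
  rw [cj_sup, cj_eq_of_normal g (resOf 2 ⊤), cj_eq_of_mem_normalizer (norm_le_OZ S (le_normalizer hg))]

theorem crit (hO : pPrimeCore 2 G = ⊥) (hS : SylIn 2 S ⊤) (hz : z ∈ OZ S) (zH : z ∈ resOf 2 (⊤ : Subgroup G))
    (z1 : z ≠ 1) (hW : (♯W).Coprime 2) (h1 : 𝒩 S ≤ 𝒩 W)
    (h2 : ∀ s ∈ S ⊓ (resOf 2 ⊤ ⊔ OZ S), orderOf s = 2 → 𝒞₁ s ≤ 𝒩 W ∧ Opp 2 (𝒞₁ s) ≤ W) :
    (∃ M : Subgroup (resOf 2 (⊤ : Subgroup G)), IsStronglyEmbedded M) ∨
      IsCharacteristicTwoType ↥(resOf 2 ⊤ ⊔ OZ S) := by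
  obtain ⟨zS, zc, zz⟩ := mem_OZ.1 hz
  have z2 := ord2_of zz z1
  have SW : S ≤ 𝒩 W := le_normalizer.trans h1
  by_cases e : resOf 2 ⊤ ≤ 𝒩 W
  · right
    have hN := normal_sup hS
    have W1 : W = ⊥ := by
      rw [eq_bot_iff, ← hO, ← H8.Opp_top]
      exact H8.le_Opp le_top (hS.resOf_sup.ge.trans (sup_le e SW)) hW
    set K := resOf 2 ⊤ ⊔ OZ S
    refine H8.charTwoType_iff.2 ⟨even_iff_two_dvd.2 (H8.dvd_card_of_orderOf_eq (mem_sup_right hz) z2), fun t ht => ?_⟩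
    have t2 : orderOf (t : G) = 2 := by rw [orderOf_coe, ht]
    obtain ⟨g, -, hg⟩ := hS.exists_conj_mem (mem_top (t : G)) (k := 1) t2
    have h3 := (h2 _ ⟨hg, hN.conj_mem _ t.2 g⟩ (ord2_conj t2 g)).2
    rw [W1, le_bot_iff, Opp_cent_eqv, cj_eq_bot_iff] at h3
    have h4 := H8.Fs_eq_Op_of_sn (H8.Fs_eq_Op_of_solvable (c.sol t t2) h3)
      (SN.of_norm (inf_le_right : K ⊓ 𝒞₁ (t : G) ≤ _) fun x hx => mem_normalizer_iff_cj.2 (by
        rw [cj_inf, cj_eq_of_normal, cj_eq_of_mem hx]))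
    have h5 : (𝒞₁ t).map K.subtype = K ⊓ 𝒞₁ (t : G) := by
      ext x
      simp only [mem_map, mem_inf, mem_cent1, coe_subtype]
      constructor
      · rintro ⟨y, hy, rfl⟩
        exact ⟨y.2, congrArg Subtype.val hy⟩
      · rintro ⟨h1, h2⟩
        exact ⟨⟨x, h1⟩, Subtype.ext h2, rfl⟩
    refine map_injective K.subtype_injective ?_
    rw [H8.Fs_map_subtype, H8.Op_map_subtype, h5, h4]
  left
  have hS' : SylIn 2 S (𝒩 W) := hS.mono SW le_top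
  have P : ∀ s ∈ 𝒩 W, s ∈ resOf 2 (⊤ : Subgroup G) → orderOf s = 2 → 𝒞₁ s ≤ 𝒩 W := fun s hs sH s2 => by
    obtain ⟨m, hm, h3⟩ := hS'.exists_conj_mem hs (k := 1) s2
    have := (h2 _ ⟨h3, mem_sup_left (Normal.conj_mem inferInstance _ sH m)⟩ (ord2_conj s2 m)).1
    rw [← cj_centralizer_singleton, cj_le_iff, cj_eq_of_mem (inv_mem hm)] at this
    exact this
  refine ⟨(𝒩 W).subgroupOf _, se_of (fun h => e (subgroupOf_eq_top.1 h)) (even_iff_two_dvd.2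
    (H8.dvd_card_of_orderOf_eq (x := ⟨z, zH⟩) (SW zS) (by rw [← orderOf_coe, z2]))) fun g s hs s2 hg => ?_⟩
  have s2' : orderOf (s : G) = 2 := by rw [orderOf_coe, s2]
  obtain ⟨m, hm, h3⟩ := hS'.exists_conj_mem (mem_subgroupOf.1 hs) (k := 1) s2'
  have h4 := mem_cent1_conj (mem_cent1.2 (zc _ h3)) (g * m⁻¹)
  rw [show (g : G) * m⁻¹ * (m * s * m⁻¹) * (g * m⁻¹)⁻¹ = g * s * (g : G)⁻¹ by group] at h4
  have h5 := P _ (P _ (mem_subgroupOf.1 hg) (g * s * g⁻¹).2 (ord2_conj s2' g) h4)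
    (Normal.conj_mem inferInstance _ zH _) (ord2_conj z2 _)
  have h6 : ((g : G) * m⁻¹) ⋆ S ≤ 𝒩 W := by
    refine le_trans ?_ h5
    rw [← cj_centralizer_singleton]
    exact cj_mono _ fun y hy => mem_cent1.2 (zc y hy).symm
  obtain ⟨n, hn, h7⟩ := hS'.exists_cj_le (isPGroup_cj _ hS.pgrp) h6
  rw [← cj_mul] at h7
  have := mul_mem (mul_mem (inv_mem hn) (h1 (mem_normalizer_of_cj_le h7))) hm
  exact mem_subgroupOf.2 (by simpa using this)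

omit c in
theorem mem_vx3 (hA : Vx 2 3 S A) (hB : Vx 2 2 S B) (ix : Ix2 (𝒞 B) S) (hs : s ∈ 𝒞 B ⊓ S) (ss : s * s = 1) :
    ∃ A, Vx 2 3 S A ∧ s ∈ A := by
  by_cases e : s ∈ B
  · rcases (vx_inf hA ix).eq_or hB inf_le_left with h | h
    · exact ⟨A, hA, (h.ge e).2⟩
    · exact ⟨_, h, mem_sup_right e⟩
  · exact ⟨_, vx_succ hB hs.2 ss (fun b hb => mem_cent1.2 (hs.1 b hb).symm) e, mem_sup_right (mem_zpowers s)⟩

omit c in
theorem OZ_eq (hz : z ∈ OZ S) (z1 : z ≠ 1) (h : ¬ Vx 2 2 S (OZ S)) : OZ S = zpowers z := by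
  refine le_antisymm (fun x hx => by_contra fun hn => h ?_) (zpowers_le.2 hz)
  obtain ⟨z2, z3, z4⟩ := mem_OZ.1 hz
  obtain ⟨x2, x3, x4⟩ := mem_OZ.1 hx
  exact (vx_sup_zpowers (p := 2) x2 z2 (by rw [sq, x4]) (by rw [sq, z4]) z1 (mem_cent1.2 (x3 z z2)) hn).of_ge
    (sup_le (zpowers_le.2 hx) (zpowers_le.2 hz)) (OZ_le S) (ae_OZ S)

omit c in
theorem not_vx_zpowers (h : Vx 2 2 S (zpowers a ⊓ A)) : False := by
  have h1 := h.card
  have := BL.card_eq_of_cyclic_elem h.elem le_rfl (isCyclic_of_le inf_le_left) fun e => by simp [e] at h1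
  omega

theorem mem_vx3' (hS : SylIn 2 S ⊤) (hA : Vx 2 3 S A) (hz : z ∈ OZ S) (zH : z ∈ resOf 2 (⊤ : Subgroup G))
    (z1 : z ≠ 1) (hs : s ∈ S ⊓ (resOf 2 ⊤ ⊔ OZ S)) (s2 : orderOf s = 2) : ∃ A, Vx 2 3 S A ∧ s ∈ A := by
  have ss := sq_of_ord2 s2
  by_cases e : Vx 2 2 S (OZ S)
  · have h : S ≤ 𝒞 (OZ S) := le_cent_comm.1 (OZ_le_cent S)
    exact mem_vx3 hA e (fun _ hg _ _ h1 _ => absurd (h hg) h1) ⟨h hs.1, hs.1⟩ ss
  have eZ := OZ_eq hz z1 e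
  obtain ⟨zS, zc, zz⟩ := mem_OZ.1 hz
  have sH : s ∈ resOf 2 (⊤ : Subgroup G) := (sup_le le_rfl (eZ.le.trans (zpowers_le.2 zH)) :) hs.2
  obtain ⟨B, hB, -, ix⟩ := exists_four hS.pgrp hA
  by_contra hn
  push Not at hn
  have hne : s ≠ z := by
    rintro rfl
    obtain ⟨A, h1, h2⟩ := mem_vx3 hA hB ix ⟨fun b hb => zc b (hB.le hb), zS⟩ ss
    exact hn A h1 h2
  have iso := iso_of hz z1 hs.1 ss (by rw [mem_zpowers_ord2 zz]; exact fun h => h.elim (ne_one_of_ord2 s2) hne) hn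
  obtain ⟨g, hg⟩ := exists_conj_mem_ix2 hS ix s2 hs.1 sH
  obtain ⟨E, hE, sE⟩ := mem_vx3 hA hB ix hg (sq_of_ord2 (ord2_conj s2 g))
  have EC : g⁻¹ ⋆ E ≤ 𝒞₁ s := by
    rw [cj_le_iff, inv_inv, cj_centralizer_singleton, ← BL.cent_zpowers]
    exact H8.elem_le_centralizer_of_le hE.elem (zpowers_le.2 sE)
  obtain ⟨T, hT, hDT⟩ := exists_sylIn_ge (hS.pgrp.to_le inf_le_left) (inf_le_right : S ⊓ 𝒞₁ s ≤ _)
  rcases hDT.eq_or_lt with h | h
  · obtain ⟨m, -, hm⟩ := hT.exists_cj_le (isPGroup_cj _ hE.pg) EC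
    have v := (hE.top.cj_top g⁻¹).cj_top m
    have := card_le_four_of fun d hd => iso d (h.ge (hm hd)) (sq d ▸ v.elem.2 d hd)
    have := v.card
    omega
  rcases (c.key hS eZ (ord2_of zz z1) hs.1 s2 hne iso hT.pgrp h hT.le).2.2 with h | ⟨a, -, h⟩
  · exact hn _ (vx_succ (vx_inf hA h) hs.1 ss inf_le_left fun h => hn A hA h.2) (mem_sup_right (mem_zpowers s))
  · exact not_vx_zpowers (vx_inf hA h)

/-- rank two and `z` not weakly closed: one class of involutions in `O²(G)` -/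
theorem isConj_of (hS : SylIn 2 S ⊤) (hr : ∀ A, ¬ Vx 2 3 S A) (eZ : OZ S = zpowers z) (z1 : z ≠ 1)
    (hg : g * z * g⁻¹ ∈ S) (hne : g * z * g⁻¹ ≠ z) (ht : t ∈ S) (tH : t ∈ resOf 2 (⊤ : Subgroup G))
    (t2 : orderOf t = 2) : IsConj z t := by
  have hz : z ∈ OZ S := eZ ▸ mem_zpowers z
  obtain ⟨zS, zc, zz⟩ := mem_OZ.1 hz
  have z2 := ord2_of zz z1
  have s2 := ord2_conj z2 g
  set s := g * z * g⁻¹ with hs
  have sz : s ∉ zpowers z := by rw [mem_zpowers_ord2 zz]; exact fun h => h.elim (ne_one_of_ord2 s2) hne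
  have iso := iso_of hz z1 hg (sq_of_ord2 s2) sz fun A hA => absurd hA (hr A)
  have hT : SylIn 2 (g ⋆ S) ⊤ := hS.cj_of_mem (mem_top g)
  have eT : OZ (g ⋆ S) = zpowers s := by rw [← cj_OZ, eZ, cj_zpowers]
  have h1 : S ⊓ 𝒞₁ s < g ⋆ S := by
    refine lt_of_le_of_ne (c.le_of_cent hT eT (hS.pgrp.to_le inf_le_left) inf_le_right) fun e => sz ?_
    rw [← eZ, hT.max S le_top hS.pgrp (e.ge.trans inf_le_left), eT]
    exact mem_zpowers s
  have h2 : g ⋆ S ≤ 𝒞₁ s := by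
    rw [hs, ← cj_centralizer_singleton]
    exact cj_mono g fun y hy => mem_cent1.2 (zc y hy).symm
  obtain ⟨c1, c2, h3⟩ := c.key hS eZ z2 hg s2 hne iso hT.pgrp h1 h2
  suffices ∃ M, Ix2 M S ∧ ∀ u ∈ M ⊓ S, orderOf u = 2 → IsConj z u by
    obtain ⟨M, ix, hM⟩ := this
    obtain ⟨k, hk⟩ := exists_conj_mem_ix2 hS ix t2 ht tH
    exact (hM _ hk (ord2_conj t2 k)).trans (isConj_iff.2 ⟨k, rfl⟩ : IsConj t _).symm
  rcases h3 with h3 | ⟨a, ha, h3⟩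
  · refine ⟨_, h3, fun u hu u2 => ?_⟩
    rcases iso u ⟨hu.2, hu.1⟩ (sq_of_ord2 u2) with rfl | rfl | rfl | rfl
    exacts [absurd rfl (ne_one_of_ord2 u2), c1, IsConj.refl _, c2]
  · refine ⟨_, h3, fun u hu u2 => ?_⟩
    have : u ∈ OZ S := mem_OZ.2 ⟨hu.2, fun y hy => mul_inv_eq_iff_eq_mul.1 (eq_of_ord2_of_isCyclic inferInstance
      (h3.conj_mem (zpowers_le.2 ha) hy hu.1) hu.1 (ord2_conj u2 y) u2), sq_of_ord2 u2⟩
    rw [eZ, mem_zpowers_ord2 zz] at this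
    rw [this.resolve_left (ne_one_of_ord2 u2)]

omit c in
theorem exists_z (he : Even ♯G) (hO' : pPrimeCore 2 G = ⊥) (hO : pCore 2 G = ⊥) (hS : SylIn 2 S ⊤) :
    ∃ z ∈ OZ S, z ∈ resOf 2 (⊤ : Subgroup G) ∧ z ≠ 1 := by
  have : S ⊓ resOf 2 ⊤ ≠ ⊥ := fun e => by
    have h1 := (hS.pNil_iff.2 e).resOf_eq_Opp
    have h2 := hS.resOf_sup
    rw [h1, H8.Opp_top, hO', bot_sup_eq] at h2
    have h3 : (⊤ : Subgroup G) ≤ ⊥ := by
      rw [← hO, ← H8.Op_top]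
      exact H8.le_Op le_rfl le_normalizer (h2 ▸ hS.pgrp)
    rw [← card_top, le_bot_iff.1 h3, card_bot] at he
    exact absurd he (by decide)
  obtain ⟨z, hz, h1⟩ := H8.exists_orderOf_eq_of_ne_bot (hS.pgrp.to_le (inf_le_left.trans inf_le_left))
    (H1.inf_centralizer_ne_bot_of_isPGroup (hS.pgrp.to_le inf_le_left) hS.pgrp (fun x hx => mem_normalizer_iff_cj.2 (by
      rw [cj_inf, cj_eq_of_normal x (resOf 2 ⊤), cj_eq_of_mem hx])) this)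
  exact ⟨z, mem_OZ.2 ⟨hz.1.1, hz.2, sq_of_ord2 h1⟩, hz.1.2, ne_one_of_ord2 h1⟩

theorem main (he : Even ♯G) (hO' : pPrimeCore 2 G = ⊥) (hO : pCore 2 G = ⊥) (hS : SylIn 2 S ⊤) :
    (∃ M : Subgroup (resOf 2 (⊤ : Subgroup G)), IsStronglyEmbedded M) ∨
    (♯↥(OZ S ⊓ resOf 2 ⊤) = 2 ∧ ∀ h ∈ resOf 2 (⊤ : Subgroup G), ∀ z ∈ OZ S ⊓ resOf 2 ⊤,
      h * z * h⁻¹ ∈ S → h * z * h⁻¹ ∈ OZ S) ∨
    (♯(OZ S) = 4 ∧ omegaOne 2 (S ⊓ resOf 2 ⊤) = OZ S) ∨ IsCharacteristicTwoType ↥(resOf 2 ⊤ ⊔ OZ S) := by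
  obtain ⟨z, hz, zH, z1⟩ := exists_z he hO' hO hS
  obtain ⟨zS, zc, zz⟩ := mem_OZ.1 hz
  have z2 := ord2_of zz z1
  by_cases hr : ∃ A, Vx 2 3 S A
  · obtain ⟨A, hA⟩ := hr
    refine (c.crit hO' hS hz zH z1 (c.gf.cop hA) (c.norm_le_W hS.pgrp hA) fun s hs s2 => ?_).imp_right
      fun h => Or.inr (Or.inr h)
    obtain ⟨E, hE, sE⟩ := c.mem_vx3' hS hA hz zH z1 hs s2
    rw [c.gf.conn (conn3 hS.pgrp hA hE)]
    exact ⟨c.good hE.top sE (ne_one_of_ord2 s2), le_clos (θ := fun a => Opp 2 (𝒞₁ a)) sE (ne_one_of_ord2 s2)⟩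
  push Not at hr
  by_cases e : Vx 2 2 S (OZ S)
  · have all : ∀ u ∈ S, u * u = 1 → u ∈ OZ S := fun u hu h => by_contra fun hn =>
      hr _ (vx_succ e hu h (fun x hx => mem_cent1.2 ((mem_OZ.1 hx).2.1 u hu)) hn)
    have c4 : ♯(OZ S) = 4 := by
      refine le_antisymm (not_lt.1 fun h => hr _ ⟨e.le, e.elem, ?_⟩) e.card
      exact Nat.le_of_dvd Nat.card_pos (pow_dvd_card_of_lt (k := 2) e.pg h)
    by_cases e' : OZ S ≤ resOf 2 ⊤
    · refine Or.inr (Or.inr (Or.inl ⟨c4, le_antisymm ((closure_le _).2 fun u hu => all u hu.1.1 (sq u ▸ hu.2))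
        fun u hu => subset_closure ⟨⟨OZ_le S hu, e' hu⟩, by rw [sq, (mem_OZ.1 hu).2.2]⟩⟩))
    refine Or.inr (Or.inl ⟨?_, fun h _ u hu h1 => all _ h1 (by
      rw [conj_mul, (mem_OZ.1 hu.1).2.2, mul_one, mul_inv_cancel])⟩)
    have := card_lt_of_lt (lt_of_le_of_ne inf_le_left fun h => e' (h.ge.trans inf_le_right) : OZ S ⊓ resOf 2 ⊤ < OZ S)
    rcases card_cases (e.pg.to_le (inf_le_left : OZ S ⊓ resOf 2 ⊤ ≤ _))
      (fun h => z1 (mem_bot.1 (h ▸ (⟨hz, zH⟩ : z ∈ OZ S ⊓ resOf 2 ⊤)))) (by omega) with h | h <;> omega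
  have eZ := OZ_eq hz z1 e
  have ZH : OZ S ≤ resOf 2 ⊤ := eZ.le.trans (zpowers_le.2 zH)
  by_cases wc : ∀ g, g * z * g⁻¹ ∈ S → g * z * g⁻¹ = z
  · refine Or.inr (Or.inl ⟨by rw [inf_eq_left.2 ZH, eZ, Nat.card_zpowers, z2], fun h _ u hu h1 => ?_⟩)
    rcases (mem_zpowers_ord2 zz).1 (eZ ▸ hu.1) with rfl | rfl
    · simp
    · rw [wc h h1]; exact hz
  push Not at wc
  obtain ⟨g, hg, hne⟩ := wc
  have NC : 𝒩 S ≤ 𝒞₁ z := fun x hx => by
    have : x * z * x⁻¹ ∈ OZ S := (norm_le_OZ S hx z).1 hz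
    rw [eZ, mem_zpowers_ord2 zz] at this
    exact mem_cent1.2 (mul_inv_eq_iff_eq_mul.1 (this.resolve_left (ne_one_of_ord2 (ord2_conj z2 x)))).symm
  have NW := NC.trans (le_normalizer.trans (H8.normalizer_le_Opp 2 (𝒞₁ z)))
  have WC : Opp 2 (𝒞₁ z) ≤ 𝒞 S := by
    obtain ⟨n, hn⟩ := IsPGroup.iff_card.1 hS.pgrp
    exact le_cent_of_norm_of_coprime ((H8.Opp_le 2 _).trans (c.cent_le hS eZ)) (le_normalizer.trans NW)
      (hn ▸ (H8.Opp_coprime 2 _).pow_right n)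
  refine (c.crit hO' hS hz zH z1 (H8.Opp_coprime 2 _) NW fun s hs s2 => ?_).imp_right fun h => Or.inr (Or.inr h)
  obtain ⟨k, hk⟩ := isConj_iff.1 (c.isConj_of hS hr eZ z1 hg hne hs.1 ((sup_le le_rfl ZH :) hs.2) s2)
  have : Opp 2 (𝒞₁ z) = Opp 2 (𝒞₁ s) := by
    refine BL.eq_of_le_of_card (le_trans (le_inf le_rfl fun x hx => mem_cent1.2 (WC hx s hs.1))
      (bal_of_constrained (c.pl s2) (isPGroup_zpowers_ord2 z2) (mem_cent1.2 (zc s hs.1)))) ?_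
    rw [← hk, Opp_cent_eqv, card_cj]
  rw [this]
  exact ⟨le_normalizer.trans (H8.normalizer_le_Opp 2 _), le_rfl⟩

end ZC

omit [Finite G] in
theorem quat_uniq {n : ℕ} [NeZero n] {x y : QuaternionGroup n} (hx : orderOf x = 2) (hy : orderOf y = 2) :
    x = y := by
  have : ∀ x : QuaternionGroup n, orderOf x = 2 → x ∈ zpowers (QuaternionGroup.a 1) := by
    rintro (i | i) h
    · exact ⟨(i.val : ℤ), by simp only [zpow_natCast, QuaternionGroup.a_one_pow, ZMod.natCast_zmod_val]⟩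
    · rw [QuaternionGroup.orderOf_xa] at h; omega
  exact eq_of_ord2_of_isCyclic inferInstance (this x hx) (this y hy) hx hy

theorem SD.dsq {K K' L L' : Subgroup G} (u : SD T K L) (v : SD T K' L')
    (hb : ∀ N ≤ T, L ≤ 𝒩 N → L' ≤ 𝒩 N → N = ⊥) (hR : SylIn 2 R (resOf 2 ⊤)) :
    (∃ n : ℕ, 2 ≤ n ∧ Nonempty (R ≃* DihedralGroup n)) ∨ IsQuasiDihedral R := by
  have e := u.inf_res v hb
  obtain ⟨h, hh, h1⟩ := hR.exists_le_cj (u.pg.to_le (u.T0_le v)) (e.ge.trans inf_le_right)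
  have hP := hR.cj_of_mem hh
  set P := h ⋆ R
  have f : R ≃* P := R.equivMapOfInjective _ (MulAut.conj h).injective
  suffices (∃ n : ℕ, 2 ≤ n ∧ Nonempty (P ≃* DihedralGroup n)) ∨ IsQuasiDihedral P from
    this.imp (fun ⟨n, h1, ⟨g⟩⟩ => ⟨n, h1, ⟨f.trans g⟩⟩) (isQuasiDihedral_of_equiv f.symm)
  have WP : WW K ≤ P := le_sup_left.trans h1
  have cW : P ⊓ 𝒞 (WW K) ≤ WW K := fun x hx =>
    u.T0_inf v hb ⟨e.le ⟨u.r.1.Q_le (u.centW hx.2), hP.le hx.1⟩, u.centW hx.2⟩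
  have c4 := u.jk.card
  obtain ⟨z, hz, z1⟩ := H8.exists_mem_ne_one (OZ_ne_bot hP.pgrp fun h => by
    rw [h, le_bot_iff] at WP; simp [WP] at c4)
  obtain ⟨zP, zc, zz⟩ := mem_OZ.1 hz
  have zW : z ∈ WW K := cW ⟨zP, fun y hy => zc y (WP hy)⟩
  obtain ⟨w, hw, wz⟩ := SetLike.not_le_iff_exists.1 (fun h : WW K ≤ zpowers z => by
    have := card_le_of_le h
    rw [c4, Nat.card_zpowers, ord2_of zz z1] at this
    omega)
  have ww := ae_sq (ae_WW K) hw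
  have vx := vx_sup_zpowers (p := 2) hw zW (by rw [sq, ww]) (by rw [sq, zz]) z1
    (mem_cent1.2 (zc w (WP hw)).symm) wz
  have eW : zpowers w ⊔ zpowers z = WW K := BL.eq_of_le_of_card vx.le (c4.le.trans vx.card)
  have c8 := card_le_of_le h1
  rw [u.card_T0 v hb] at c8
  have : P ⊓ 𝒞₁ w ≤ WW K := fun x hx => cW ⟨hx.1, by
    rw [← eW]
    exact BL.le_cent_sup (A := zpowers x) (by rw [BL.cent_zpowers]; exact zpowers_le.2 hx.2)
      (by rw [BL.cent_zpowers]; exact zpowers_le.2 (mem_cent1.2 (zc x hx.1).symm)) (mem_zpowers x)⟩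
  rcases dsq_of_cent hP.pgrp (WP hw) ((card_le_of_le this).trans c4.le) (by omega) with
    ⟨k, h⟩ | ⟨k, h1, a, b, h2⟩ | ⟨k, ⟨g⟩⟩
  · exact Or.inl ⟨_, (by omega : 2 ≤ 2 ^ 2).trans (Nat.pow_le_pow_right (by omega) (by omega)), h⟩
  · exact Or.inr ⟨k + 3, by omega, h1, a, b, h2⟩
  · have := g.injective (quat_uniq (x := g ⟨w, WP hw⟩) (y := g ⟨z, zP⟩)
      (by rw [MulEquiv.orderOf_eq, ← orderOf_coe]; exact ord2_of ww fun h : w = 1 => wz (h ▸ one_mem _))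
      (by rw [MulEquiv.orderOf_eq, ← orderOf_coe]; exact ord2_of zz z1))
    exact absurd (by rw [show w = z from congrArg Subtype.val this]; exact mem_zpowers z) wz

theorem se_comap {K : Subgroup G} {M : Subgroup K} (hM : IsStronglyEmbedded M) [hH : H.Normal] (h : H ≤ K)
    (hz : z ∈ H) (z2 : orderOf z = 2) : IsStronglyEmbedded (M.comap (inclusion h)) := by
  obtain ⟨s, hs, s2⟩ := H7.se_exists_invol hM
  obtain ⟨g, hg⟩ := isConj_iff.1 (H7.se_isConj hM (a := ⟨z, h hz⟩) (by rw [← orderOf_coe, z2]) s2)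
  have sH : (s : G) ∈ H := by rw [← hg]; exact hH.conj_mem _ hz g
  refine se_of (fun e => ?_) (even_iff_two_dvd.2 (H8.dvd_card_of_orderOf_eq (x := ⟨s, sH⟩) hs
    (by rw [← orderOf_coe, orderOf_coe s, s2]))) fun g t ht t2 hg => se_mem' hM (s := inclusion h t) ht
      (by rw [orderOf_injective _ (inclusion_injective h), t2]) (by simpa using hg)
  obtain ⟨u, hu, u2⟩ := H7.se_exists_invol_not_mem hM
  obtain ⟨g, hg⟩ := isConj_iff.1 (H7.se_isConj hM s2 u2)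
  exact hu (e.ge (mem_top (⟨u, by rw [← hg]; exact hH.conj_mem _ sH g⟩ : H)))

theorem zn_thm (he : Even ♯G) (hN : ∀ L : Subgroup G, IsTwoLocal L → Group.IsSolvable L)
    (hZ : ∀ S : Subgroup G, SylIn 2 S ⊤ → 𝒞 (OZ S) ≤ 𝒩 S) (hO' : pPrimeCore 2 G = ⊥) (hO : pCore 2 G = ⊥)
    (hS : SylIn 2 S ⊤) (hc : IsCharacteristicTwoType ↥(resOf 2 ⊤ ⊔ OZ S)) :
    (∃ M : Subgroup (resOf 2 (⊤ : Subgroup G)), IsStronglyEmbedded M) ∨
    (∃ n : ℕ, 2 ≤ n ∧ Nonempty (↥(S ⊓ resOf 2 ⊤) ≃* DihedralGroup n)) ∨ IsQuasiDihedral ↥(S ⊓ resOf 2 ⊤) := by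
  obtain ⟨z, hz, zH, z1⟩ := ZC.exists_z he hO' hO hS
  have hK := ZC.normal_sup hS
  have HK : resOf 2 ⊤ ≤ resOf 2 ⊤ ⊔ OZ S := le_sup_left
  have ZK : OZ S ≤ resOf 2 ⊤ ⊔ OZ S := le_sup_right
  generalize resOf 2 ⊤ ⊔ OZ S = K at *
  have zn : ZN K := by
    refine zn_mk hc ?_ fun P g hg => ?_
    · rintro _ ⟨R, h1, h2, rfl⟩
      have := hN _ ⟨R.map K.subtype, h1.map _, fun e => h2 ((map_eq_bot_iff_of_injective _ K.subtype_injective).1 e), rfl⟩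
      have := H8.solvable_of_le (inf_le_right : K ⊓ _ ≤ _) this
      rw [← H8.normalizer_map_subtype] at this
      exact solvable_of_surjective (f := ((𝒩 R).equivMapOfInjective _ K.subtype_injective).symm.toMonoidHom)
        (MulEquiv.surjective _)
    obtain ⟨T, hT, h1⟩ := exists_sylIn_ge (sylIn_map_subtype P).pgrp le_top
    have e := (sylIn_map_subtype P).max (T ⊓ K) inf_le_right (hT.pgrp.to_le inf_le_left)
      (le_inf h1 (map_subtype_le _))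
    have m : ∀ y : K, y ∈ (P : Subgroup K) ↔ (y : G) ∈ T := fun y =>
      ⟨fun hy => h1 (mem_map_of_mem _ hy), fun hy => (mem_map_iff_mem K.subtype_injective).1 (e.le ⟨hy, y.2⟩)⟩
    obtain ⟨h, -, rfl⟩ := hS.exists_cj_eq hT
    have : (g : G) ∈ 𝒩 (h ⋆ S) := hZ _ hT fun x hx => by
      have xK : x ∈ K := by
        rw [← cj_OZ] at hx
        exact cj_eq_of_normal h K ▸ cj_mono h ZK hx
      obtain ⟨x1, x2, x3⟩ := mem_OZ.1 hx
      exact congrArg Subtype.val (hg ⟨x, xK⟩ (mem_OZ.2 ⟨(m _).2 x1, fun y hy => Subtype.ext (x2 y ((m y).1 hy)),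
        Subtype.ext x3⟩))
    intro y
    exact (m y).trans ((this y).trans (m (g * y * g⁻¹)).symm)
  have hOK : pCore 2 K = ⊥ := by
    refine (map_eq_bot_iff_of_injective _ K.subtype_injective).1 (le_bot_iff.1 ?_)
    rw [← hO, ← H8.Op_top 2 (G := G)]
    exact H8.Op_le_Op_of_sn 2 (SN.of_norm le_top (by rw [normalizer_eq_top]))
  rcases zn.s4_type hc.1 hOK with ⟨M, hM⟩ | ⟨T, K₁, L, K', L', u, v, hb⟩
  · exact Or.inl ⟨_, se_comap hM HK zH (ord2_of (mem_OZ.1 hz).2.2 z1)⟩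
  right
  have e : resOf 2 (⊤ : Subgroup K) = (resOf 2 ⊤).subgroupOf K := by
    rw [resOf_top, pResidual_eq_subgroupOf]
    congr 1
    exact le_antisymm (resOf_mono le_top) ((resOf_resOf 2 ⊤).ge.trans (resOf_mono HK))
  have hR : SylIn 2 ((S ⊓ resOf 2 ⊤).subgroupOf K) (resOf 2 ⊤) := by
    rw [e]; exact (sylIn_subgroupOf_iff HK (inf_le_right.trans HK)).2 hS.inf_resOf
  have f := subgroupOfEquivOfLe (inf_le_right.trans HK : S ⊓ resOf 2 ⊤ ≤ K)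
  exact (u.dsq v hb hR).imp (fun ⟨n, h1, ⟨g⟩⟩ => ⟨n, h1, ⟨f.symm.trans g⟩⟩) (isQuasiDihedral_of_equiv f)

end Cfsg.Agent.H2.JC
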